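import Cfsg.Agent.Lib.Char.FrobSchur
import Cfsg.Agent.Lib.Char.Basic
import Mathlib.LinearAlgebra.Trace

/-!
# The alternating square of a character
-/

set_option autoImplicit false

open Module Matrix
open scoped ComplexConjugate

namespace Cfsg.Agent.Lib.Char

universe u

variable {G : Type u} [Group G] [Fintype G]

/-- The alternating square of a character is a character. -/
theorem isCharacter_altSquare {χ : G → ℂ} (h : IsCharacter G χ) :
    IsCharacter G (fun g => (χ g * χ g - χ (g * g)) / 2) := by
  classical
  have hc := h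
  obtain ⟨n, ρ, rfl⟩ := h
  let T : Module.End ℂ (Matrix (Fin n) (Fin n) ℂ) :=
    (Matrix.transposeLinearEquiv (Fin n) (Fin n) ℂ ℂ).toLinearMap
  let e : Module.End ℂ (Matrix (Fin n) (Fin n) ℂ) := (2 : ℂ)⁻¹ • (1 - T)
  have hT : ∀ M, T M = Mᵀ := fun M => rfl
  have hcomm : ∀ g M, T (formRep ρ g M) = formRep ρ g (T M) := fun g M => by
    simp only [hT, formRep_apply, Matrix.transpose_mul, Matrix.transpose_transpose, Matrix.mul_assoc]
  have he : ∀ g M, e (formRep ρ g M) = formRep ρ g (e M) := fun g M => by
    simp only [e, LinearMap.smul_apply, LinearMap.sub_apply, Module.End.one_apply, hcomm, map_smul,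
      map_sub]
  let V : Submodule ℂ (Matrix (Fin n) (Fin n) ℂ) := LinearMap.range e
  have hV : ∀ g, ∀ M ∈ V, formRep ρ g M ∈ V := by
    rintro g _ ⟨M, rfl⟩
    exact ⟨formRep ρ g M, he g M⟩
  have hidem : ∀ M ∈ V, e M = M := by
    rintro _ ⟨M, rfl⟩
    simp only [e, LinearMap.smul_apply, LinearMap.sub_apply, Module.End.one_apply, map_smul, map_sub,
      hT, Matrix.transpose_transpose]
    module
  let σ : Representation ℂ G V :=
    { toFun := fun g => (formRep ρ g).restrict (hV g)
      map_one' := by
        refine LinearMap.ext fun v => Subtype.ext ?_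
        simp
      map_mul' := fun a b => by
        refine LinearMap.ext fun v => Subtype.ext ?_
        simp [LinearMap.restrict_apply] }
  have hσ : ∀ g, σ.character g =
      (ρ.character g⁻¹ * ρ.character g⁻¹ - ρ.character (g⁻¹ * g⁻¹)) / 2 := by
    intro g
    have hmem : ∀ M, (formRep ρ g * e) M ∈ V := fun M => hV g _ ⟨M, rfl⟩
    have e1 : σ g = (formRep ρ g * e).restrict (fun M _ => hmem M) := by
      refine LinearMap.ext fun v => Subtype.ext ?_
      show formRep ρ g v = (formRep ρ g * e) v
      rw [Module.End.mul_apply, hidem _ v.2]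
    have e2 : LinearMap.trace ℂ _ (formRep ρ g * T) = ρ.character (g⁻¹ * g⁻¹) := by
      rw [trace_toMatrix_pair (LinearMap.toMatrix' (ρ g⁻¹))ᵀ (LinearMap.toMatrix' (ρ g⁻¹)) _
        (fun M => by rw [Module.End.mul_apply, hT, formRep_apply])]
      rw [← Matrix.transpose_mul, Matrix.trace_transpose, ← LinearMap.toMatrix'_comp,
        ← Module.End.mul_eq_comp, ← map_mul, trace_toMatrix'_eq]
    have e3 : LinearMap.trace ℂ V ((formRep ρ g * e).restrict (fun M _ => hmem M)) =
        LinearMap.trace ℂ _ (formRep ρ g * e) := by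
      rw [show (formRep ρ g * e).restrict (fun M _ => hmem M) =
          ((formRep ρ g * e).codRestrict V hmem) ∘ₗ V.subtype from rfl, LinearMap.trace_comp_comm',
        LinearMap.subtype_comp_codRestrict]
    rw [Representation.character, e1, e3]
    simp only [e, mul_smul_comm, mul_sub, mul_one, map_smul, map_sub, e2, smul_eq_mul]
    rw [← Representation.character, formRep_character]
    ring
  have h' := isCharacter_conj (isCharacter_character σ)
  convert h' using 1
  funext g
  rw [hσ g, ← _root_.mul_inv_rev, char_inv hc, char_inv hc]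
  simp [map_ofNat]

end Cfsg.Agent.Lib.Char
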