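import Cfsg.Agent.Lib.Involution.Exceptional

/-!
# Labelling the constituents of a coherent family of norm three
-/

set_option autoImplicit false
set_option linter.unusedSectionVars false

namespace Cfsg.Agent.Lib.Char.DihLabels

variable {ι : Type*} [Fintype ι] [DecidableEq ι]

/-- The conclusion: common constituent, family, two further constituents. -/
def Labels (one : ι) {m : ℕ} (a b : Fin m → ι) (L : ι → ℤ) : Prop :=
  ∃ (X : ι) (Y : Fin m → ι) (X₂ X₃ : ι) (e e₂ e₃ : ℤ),
    (e = 1 ∨ e = -1) ∧ (e₂ = 1 ∨ e₂ = -1) ∧ (e₃ = 1 ∨ e₃ = -1) ∧ Function.Injective Y ∧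
      (∀ j, (b j = X ∧ a j = Y j ∧ e = 1) ∨ (a j = X ∧ b j = Y j ∧ e = -1)) ∧
      X ≠ one ∧ X₂ ≠ one ∧ X₃ ≠ one ∧ X ≠ X₂ ∧ X ≠ X₃ ∧ X₂ ≠ X₃ ∧
      (∀ j, Y j ≠ X ∧ Y j ≠ X₂ ∧ Y j ≠ X₃ ∧ Y j ≠ one) ∧
      ∀ F : ι → ℂ, ∑ i, (L i : ℂ) * F i = F one + e * F X + e₂ * F X₂ + e₃ * F X₃

theorem labels_of_normal {one : ι} {m : ℕ} {a b : Fin m → ι} {L : ι → ℤ} {X : ι}
    {Y : Fin m → ι} {e : ℤ} (he : e = 1 ∨ e = -1) (hY : Function.Injective Y)
    (hab : ∀ j, (b j = X ∧ a j = Y j ∧ e = 1) ∨ (a j = X ∧ b j = Y j ∧ e = -1))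
    (hX : X ≠ one) (hYX : ∀ j, Y j ≠ X) (hY1 : ∀ j, Y j ≠ one) (hL1 : L one = 1)
    (hLX : L X = e) (hLY : ∀ j, L (Y j) = 0) (hsq : ∑ i, L i * L i = 4) :
    Labels one a b L := by
  classical
  let L' : ι → ℤ := fun i => if i = one ∨ i = X then 0 else L i
  have hsplit : ∀ i, L i * L i =
      L' i * L' i + ((if i = one then (1 : ℤ) else 0) + if i = X then 1 else 0) := by
    intro i
    by_cases h1 : i = one
    · subst h1; simp [L', hL1, Ne.symm hX]
    · by_cases h2 : i = X
      · subst h2
        simp only [L', h1, if_false, or_true, if_true, mul_zero, zero_add, add_zero, hLX]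
        rcases he with h | h <;> simp [h]
      · simp [L', h1, h2]
  have h2 : ∑ i, L' i * L' i = (2 : ℕ) := by
    rw [Finset.sum_congr rfl fun i _ => hsplit i, Finset.sum_add_distrib, Finset.sum_add_distrib,
      Finset.sum_ite_eq' Finset.univ one, Finset.sum_ite_eq' Finset.univ X] at hsq
    simp only [Finset.mem_univ, if_true] at hsq
    push_cast
    linarith
  obtain ⟨s, hs, hsign, hzero⟩ := Cfsg.Agent.Lib.Involution.exists_signs L' (by norm_num) h2
  obtain ⟨p, q, hpq, rfl⟩ := Finset.card_eq_two.mp hs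
  have hne : ∀ i ∈ ({p, q} : Finset ι), i ≠ one ∧ i ≠ X ∧ L i = L' i := by
    intro i hi
    by_cases h : i = one ∨ i = X
    · rcases hsign i hi with h' | h' <;> simp [L', h] at h'
    · push Not at h
      exact ⟨h.1, h.2, by simp [L', h.1, h.2]⟩
  obtain ⟨hp1, hpX, hpL⟩ := hne p (by simp)
  obtain ⟨hq1, hqX, hqL⟩ := hne q (by simp)
  refine ⟨X, Y, p, q, e, L' p, L' q, he, hsign p (by simp), hsign q (by simp), hY, hab, hX, hp1, hq1,
    hpX.symm, hqX.symm, hpq, fun j => ⟨hYX j, ?_, ?_, hY1 j⟩, fun F => ?_⟩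
  · intro h
    rcases hsign p (by simp) with h' | h' <;> rw [← hpL, ← h, hLY j] at h' <;> omega
  · intro h
    rcases hsign q (by simp) with h' | h' <;> rw [← hqL, ← h, hLY j] at h' <;> omega
  · have hF : ∀ i, (L i : ℂ) * F i = (L' i : ℂ) * F i +
        ((if i = one then F one else 0) + if i = X then (e : ℂ) * F X else 0) := by
      intro i
      by_cases h1 : i = one
      · subst h1; simp [L', hL1, Ne.symm hX]
      · by_cases h2 : i = X
        · subst h2; simp [L', h1, hLX]
        · simp [L', h1, h2]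
    rw [Finset.sum_congr rfl fun i _ => hF i, Finset.sum_add_distrib, Finset.sum_add_distrib,
      Finset.sum_ite_eq' Finset.univ one (fun _ => F one),
      Finset.sum_ite_eq' Finset.univ X (fun _ => (e : ℂ) * F X),
      ← Finset.sum_subset (Finset.subset_univ ({p, q} : Finset ι)) (fun i _ hi => by
        rw [hzero i hi, Int.cast_zero, zero_mul]), Finset.sum_pair hpq]
    simp only [Finset.mem_univ, if_true]
    ring

/-- Existence of the labelling. -/
theorem exists_labels {one : ι} {m : ℕ} (hm : Odd m) {a b : Fin m → ι} {L : ι → ℤ} {deg : ι → ℕ}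
    (hdeg1 : deg one = 1) (hdeg : ∀ j, deg (a j) = deg (b j) + 1)
    (ha1 : ∀ j, a j ≠ one) (hb1 : ∀ j, b j ≠ one)
    (hpair : ∀ j k, j ≠ k → ((if b j = b k then (1 : ℤ) else 0) + if a j = a k then 1 else 0) -
      ((if b j = a k then (1 : ℤ) else 0) + if a j = b k then 1 else 0) = 1)
    (hL1 : L one = 1) (hLab : ∀ j, L (b j) - L (a j) = 1)
    (hsq : ∑ i, L i * L i = 4) (hLdeg : ∑ i, L i * (deg i : ℤ) = 0) : Labels one a b L := by
  classical
  have hne : ∀ j, a j ≠ b j := fun j h => by have := hdeg j; rw [h] at this; omega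
  have hone : ∀ j k, j ≠ k → (a j = a k ∧ b j ≠ b k) ∨ (b j = b k ∧ a j ≠ a k) := by
    intro j k hjk
    have h := hpair j k hjk
    by_cases h1 : b j = b k
    · by_cases h2 : a j = a k
      · have h3 : b j ≠ a k := fun h' => hne j (h2.trans h'.symm)
        have h4 : a j ≠ b k := fun h' => hne j (h'.trans h1.symm)
        rw [if_pos h1, if_pos h2, if_neg h3, if_neg h4] at h
        omega
      · exact Or.inr ⟨h1, h2⟩
    · by_cases h2 : a j = a k
      · exact Or.inl ⟨h2, h1⟩
      · rw [if_neg h1, if_neg h2] at h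
        split_ifs at h <;> omega
  obtain ⟨k, hk⟩ := hm
  set j0 : Fin m := ⟨0, by omega⟩
  obtain ⟨X, Y, e, he, hY, hab⟩ : ∃ (X : ι) (Y : Fin m → ι) (e : ℤ), (e = 1 ∨ e = -1) ∧
      Function.Injective Y ∧
      ∀ j, (b j = X ∧ a j = Y j ∧ e = 1) ∨ (a j = X ∧ b j = Y j ∧ e = -1) := by
    by_cases hA : ∀ j, b j = b j0
    · refine ⟨b j0, a, 1, Or.inl rfl, fun i j hij => ?_, fun j => Or.inl ⟨hA j, rfl, rfl⟩⟩
      by_contra hne'
      rcases hone i j hne' with h | h
      · exact h.2 ((hA i).trans (hA j).symm)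
      · exact h.2 hij
    · push Not at hA
      obtain ⟨l, hl⟩ := hA
      have hlj : a l = a j0 := by
        rcases hone l j0 (fun h => hl (h ▸ rfl)) with h | h
        · exact h.1
        · exact absurd h.1 hl
      have hall : ∀ j, a j = a j0 := by
        intro j
        by_contra hc
        have hj : j ≠ j0 := fun h => hc (h ▸ rfl)
        have hb : b j = b j0 := ((hone j j0 hj).resolve_left fun h => hc h.1).1
        have hjl : j ≠ l := fun h => hc (h ▸ hlj)
        rcases hone j l hjl with h | h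
        · exact hc (h.1.trans hlj)
        · exact hl (h.1.symm.trans hb)
      refine ⟨a j0, b, -1, Or.inr rfl, fun i j hij => ?_, fun j => Or.inr ⟨hall j, rfl, rfl⟩⟩
      by_contra hne'
      rcases hone i j hne' with h | h
      · exact h.2 hij
      · exact h.2 ((hall i).trans (hall j).symm)
  have hX : X ≠ one := by
    rcases hab j0 with h | h
    · exact h.1 ▸ hb1 j0
    · exact h.1 ▸ ha1 j0
  have hYX : ∀ j, Y j ≠ X := fun j => by
    rcases hab j with h | h
    · rw [← h.1, ← h.2.1]; exact hne j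
    · rw [← h.1, ← h.2.1]; exact (hne j).symm
  have hY1 : ∀ j, Y j ≠ one := fun j => by
    rcases hab j with h | h
    · exact h.2.1 ▸ ha1 j
    · exact h.2.1 ▸ hb1 j
  have hLY : ∀ j, e * L (Y j) = e * L X - 1 := fun j => by
    have h := hLab j
    rcases hab j with ⟨h1, h2, h3⟩ | ⟨h1, h2, h3⟩ <;> rw [h1, h2] at h <;> rw [h3] <;> linarith
  have hee : e * e = 1 := by rcases he with h | h <;> simp [h]
  -- the part of the square sum on the known constituents
  set T : Finset ι := insert one (insert X (Finset.univ.image Y)) with hT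
  have hTsum : ∀ f : ι → ℤ, ∑ i ∈ T, f i = f one + (f X + ∑ j, f (Y j)) := by
    intro f
    rw [hT, Finset.sum_insert, Finset.sum_insert, Finset.sum_image (fun i _ j _ h => hY h)]
    · simp only [Finset.mem_image, Finset.mem_univ, true_and, not_exists]; exact hYX
    · simp only [Finset.mem_insert, Finset.mem_image, Finset.mem_univ, true_and, not_or, not_exists]
      exact ⟨hX.symm, hY1⟩
  set x := e * L X with hx
  have hYsq : ∀ j, L (Y j) * L (Y j) = (x - 1) * (x - 1) := fun j => by
    rw [← hLY j]; linear_combination (-(L (Y j) * L (Y j))) * hee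
  have hXsq : L X * L X = x * x := by rw [hx]; linear_combination (-(L X * L X)) * hee
  have hle : 1 + (x * x + m * ((x - 1) * (x - 1))) ≤ 4 := by
    rw [← hsq]
    have h := hTsum fun i => L i * L i
    simp only [hL1, hXsq, hYsq, Finset.sum_const, Finset.card_univ, Fintype.card_fin, nsmul_eq_mul,
      mul_one] at h
    rw [← h]
    exact Finset.sum_le_sum_of_subset_of_nonneg (Finset.subset_univ T) fun i _ _ => mul_self_nonneg _
  have hxlo : 0 ≤ x := by nlinarith
  have hxhi : x ≤ 1 := by nlinarith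
  rcases (by omega : x = 0 ∨ x = 1) with hx0 | hx1
  · have hm3 : (m : ℤ) ≤ 3 := by rw [hx0] at hle; linarith
    have hLX : L X = 0 := by
      have := hx0; rw [hx] at this; rcases he with h | h <;> rw [h] at this <;> linarith
    have hLYv : ∀ j, L (Y j) = -e := fun j => by
      have := hLY j; rw [← hx] at *; rw [hx0] at this
      rcases he with h | h <;> rw [h] at this ⊢ <;> linarith
    rcases (by omega : m = 1 ∨ m = 3) with hm1 | hm3'
    · have huniq : ∀ j : Fin m, j = j0 := fun j => Fin.ext (by have := j.2; simp [j0]; omega)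
      refine labels_of_normal (X := Y j0) (Y := fun _ => X) (e := -e) ?_ ?_ ?_ (hY1 j0)
        (fun _ => (hYX j0).symm) (fun _ => hX) hL1 (hLYv j0) (fun _ => hLX) hsq
      · rcases he with h | h <;> simp [h]
      · exact fun i j _ => (huniq i).trans (huniq j).symm
      · intro j
        rw [huniq j]
        rcases hab j0 with ⟨h1, h2, h3⟩ | ⟨h1, h2, h3⟩
        · exact Or.inr ⟨h2, h1, by rw [h3]⟩
        · exact Or.inl ⟨h2, h1, by rw [h3]; norm_num⟩
    · exfalso
      -- nothing outside the known constituents; the degree relation fails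
      have hzero : ∀ i ∉ T, L i = 0 := by
        intro i hi
        have h := hTsum fun i => L i * L i
        simp only [hL1, hLX, hLYv, Finset.sum_const, Finset.card_univ, Fintype.card_fin,
          nsmul_eq_mul, mul_one, mul_zero, zero_add, neg_mul_neg, hee] at h
        have hsplit := Finset.sum_add_sum_compl T fun i => L i * L i
        rw [hsq, h, hm3'] at hsplit
        have hc : ∑ i ∈ Tᶜ, L i * L i = 0 := by push_cast at hsplit; linarith
        have := (Finset.sum_eq_zero_iff_of_nonneg fun i _ => mul_self_nonneg (L i)).1 hc i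
          (Finset.mem_compl.2 hi)
        exact mul_self_eq_zero.1 this
      rw [← Finset.sum_subset (Finset.subset_univ T) (fun i _ hi => by rw [hzero i hi, zero_mul]),
        hTsum, hL1, hLX, hdeg1] at hLdeg
      have hdY : ∀ j, deg (Y j) = deg (Y j0) := fun j => by
        have h1 := hdeg j
        have h2 := hdeg j0
        rcases hab j with ⟨u1, u2, u3⟩ | ⟨u1, u2, u3⟩ <;> rcases hab j0 with ⟨v1, v2, v3⟩ | ⟨v1, v2, v3⟩ <;>
          rw [u1, u2] at h1 <;> rw [v1, v2] at h2 <;> omega
      simp only [hLYv, hdY, Finset.sum_const, Finset.card_univ, Fintype.card_fin, nsmul_eq_mul,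
        hm3'] at hLdeg
      push_cast at hLdeg
      rcases he with h | h <;> rw [h] at hLdeg <;> omega
  · refine labels_of_normal he hY hab hX hYX hY1 hL1 ?_ (fun j => ?_) hsq
    · rw [hx] at hx1; rcases he with h | h <;> rw [h] at hx1 ⊢ <;> linarith
    · have := hLY j; rw [hx1, sub_self] at this
      exact (mul_eq_zero.1 this).resolve_left (by rcases he with h | h <;> simp [h])

end Cfsg.Agent.Lib.Char.DihLabels
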