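import Cfsg.Agent.Lib.Char.DihedralCentData
import Cfsg.Agent.Lib.Char.DihedralLabels
import Cfsg.Agent.Lib.Block.Principal
import Cfsg.Agent.Lib.Char.Coherent

/-!
# The principal 2-block of a group with dihedral Sylow 2-subgroups
-/

set_option autoImplicit false
set_option linter.unusedSectionVars false
set_option linter.style.haveILetI false

namespace Cfsg.Agent.Lib.Char.DihBlock

open Cfsg Cfsg.Agent.Lib Cfsg.Agent.Lib.Char
open scoped ComplexConjugate

universe u

variable {G : Type u} [Group G] [Finite G]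

/-- The weight `2 - x ^ j - x ^ (N - j)`. -/
noncomputable def ev (N j : ℕ) (x : ℂ) : ℂ := 2 - x ^ j - x ^ (N - j)

theorem ev_one (N j : ℕ) : ev N j 1 = 0 := by simp [ev]; norm_num

theorem inv_pow_eq {N a : ℕ} (ha : a ≤ N) {x : ℂ} (hx : x ^ N = 1) : (x ^ a)⁻¹ = x ^ (N - a) := by
  refine inv_eq_of_mul_eq_one_right ?_
  rw [← pow_add, Nat.add_sub_cancel' ha, hx]

theorem conj_pow_eq {N a : ℕ} (hN : N ≠ 0) (ha : a ≤ N) {x : ℂ} (hx : x ^ N = 1) :
    conj (x ^ a) = x ^ (N - a) := by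
  rw [← inv_pow_eq ha hx, Complex.inv_eq_conj]
  exact Complex.norm_eq_one_of_pow_eq_one (by rw [← pow_mul, mul_comm, pow_mul, hx, one_pow]) hN

theorem conj_ev {N j : ℕ} (hN : N ≠ 0) (hj : j ≤ N) {x : ℂ} (hx : x ^ N = 1) :
    conj (ev N j x) = ev N j x := by
  rw [ev, map_sub, map_sub, conj_pow_eq hN hj hx, conj_pow_eq hN (Nat.sub_le N j) hx,
    Nat.sub_sub_self hj, map_ofNat]
  ring

section Roots

variable {N : ℕ} {ζ : ℂ}

theorem sum_root (hζ : IsPrimitiveRoot ζ N) (a : ℕ) :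
    ∑ i ∈ Finset.range N, (ζ ^ i) ^ a = if N ∣ a then (N : ℂ) else 0 := by
  have e : ∀ i ∈ Finset.range N, (ζ ^ i) ^ a = (ζ ^ a) ^ i := fun i _ => pow_right_comm ζ i a
  rw [Finset.sum_congr rfl e]
  split_ifs with h
  · rw [(hζ.pow_eq_one_iff_dvd a).2 h]
    simp
  · have h1 : ζ ^ a ≠ 1 := fun h' => h ((hζ.pow_eq_one_iff_dvd a).1 h')
    rw [geom_sum_eq h1, ← pow_mul, mul_comm, pow_mul, hζ.pow_eq_one, one_pow, sub_self, zero_div]

theorem sum_ev_mul_pow (hζ : IsPrimitiveRoot ζ N) (j a : ℕ) :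
    ∑ i ∈ Finset.range N, ev N j (ζ ^ i) * (ζ ^ i) ^ a =
      2 * (if N ∣ a then (N : ℂ) else 0) - (if N ∣ j + a then (N : ℂ) else 0) -
        if N ∣ N - j + a then (N : ℂ) else 0 := by
  rw [← sum_root hζ a, ← sum_root hζ (j + a), ← sum_root hζ (N - j + a), Finset.mul_sum,
    ← Finset.sum_sub_distrib, ← Finset.sum_sub_distrib]
  refine Finset.sum_congr rfl fun i _ => ?_
  rw [ev, pow_add, pow_add]
  ring

theorem not_dvd_small {N a : ℕ} (h1 : 0 < a) (h2 : a < N) : ¬ N ∣ a :=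
  fun h => absurd (Nat.le_of_dvd h1 h) (by omega)

theorem dvd_iff_eq {N a : ℕ} (h1 : 0 < a) (h2 : a < 2 * N) : N ∣ a ↔ a = N := by
  refine ⟨?_, fun h => h ▸ dvd_rfl⟩
  rintro ⟨q, rfl⟩
  rcases q with _ | _ | q
  · omega
  · ring
  · nlinarith

variable {h : ℕ}

theorem sum_ev (hζ : IsPrimitiveRoot ζ N) (hN : N = 2 * h) {j : ℕ} (h1 : 1 ≤ j) (h2 : j ≤ h) :
    ∑ i ∈ Finset.range N, ev N j (ζ ^ i) = 2 * (N : ℂ) := by
  have e := sum_ev_mul_pow hζ j 0
  simp only [pow_zero, mul_one, add_zero, dvd_zero, if_true] at e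
  rw [e, if_neg (not_dvd_small (by omega) (by omega)), if_neg (not_dvd_small (by omega) (by omega))]
  ring

/-- Orthogonality of `ev` and the pairs of roots. -/
theorem sum_ev_pair (hζ : IsPrimitiveRoot ζ N) (hN : N = 2 * h) {j k : ℕ} (h1 : 1 ≤ j)
    (h2 : j ≤ h) (k1 : 1 ≤ k) (k2 : k ≤ h) :
    ∑ i ∈ Finset.range N, ev N j (ζ ^ i) * ((ζ ^ i) ^ k + (ζ ^ i) ^ (N - k)) =
      - ((if j = k then (2 * N : ℂ) else 0) + if j = h ∧ k = h then (2 * N : ℂ) else 0) := by
  simp only [mul_add, Finset.sum_add_distrib, sum_ev_mul_pow hζ]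
  rw [if_neg (not_dvd_small (a := k) (by omega) (by omega)),
    if_neg (not_dvd_small (a := N - k) (by omega) (by omega))]
  simp only [dvd_iff_eq (a := j + k) (N := N) (by omega) (by omega),
    dvd_iff_eq (a := N - j + k) (N := N) (by omega) (by omega),
    dvd_iff_eq (a := j + (N - k)) (N := N) (by omega) (by omega),
    dvd_iff_eq (a := N - j + (N - k)) (N := N) (by omega) (by omega)]
  have q1 : j + k = N ↔ (j = h ∧ k = h) := by omega
  have q2 : N - j + k = N ↔ j = k := by omega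
  have q3 : j + (N - k) = N ↔ j = k := by omega
  have q4 : N - j + (N - k) = N ↔ (j = h ∧ k = h) := by omega
  simp only [q1, q2, q3, q4]
  split_ifs <;> ring

theorem sum_ev_sign (hζ : IsPrimitiveRoot ζ N) (hN : N = 2 * h) {j : ℕ} (h1 : 1 ≤ j) (h2 : j ≤ h) :
    ∑ i ∈ Finset.range N, ev N j (ζ ^ i) * (ζ ^ i) ^ h = if j = h then -(2 * N : ℂ) else 0 := by
  have e := sum_ev_pair hζ hN h1 h2 (show 1 ≤ h by omega) le_rfl
  rw [show N - h = h by omega] at e
  simp only [mul_add, Finset.sum_add_distrib, and_true] at e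
  split_ifs at e ⊢ <;> linear_combination e / 2

/-- An even function orthogonal to all the weights vanishes. -/
theorem eq_zero_of_sum_ev (hζ : IsPrimitiveRoot ζ N) (hN : N = 2 * h) (g : ℕ → ℂ)
    (heven : ∀ i, 0 < i → i < N → g (N - i) = g i)
    (hg : ∀ j, 1 ≤ j → j ≤ h → ∑ i ∈ Finset.range N, ev N j (ζ ^ i) * g i = 0)
    (k : ℕ) (hk0 : 0 < k) (hk : k < N) : g k = 0 := by
  classical
  set S := ∑ i ∈ (Finset.range N).erase 0, g i with hS
  set f : ℕ → ℂ := fun i => if i = 0 then -S else g i with hf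
  set H : ℕ → ℂ := fun j => ∑ i ∈ Finset.range N, (ζ ^ i) ^ j * f i with hH
  have h0 : H 0 = 0 := by
    simp only [hH, pow_zero, one_mul]
    rw [← Finset.add_sum_erase _ _ (Finset.mem_range.2 (show 0 < N by omega))]
    rw [show f 0 = -S by simp [hf], Finset.sum_congr rfl (fun i hi => show f i = g i by
      simp [hf, (Finset.mem_erase.1 hi).1]), ← hS, neg_add_cancel]
  have hfeven : ∀ i ∈ Finset.range N, f ((N - i) % N) = f i := by
    intro i hi
    rw [Finset.mem_range] at hi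
    rcases Nat.eq_zero_or_pos i with rfl | hpos
    · simp
    · rw [Nat.mod_eq_of_lt (by omega)]
      simp only [hf, if_neg (show N - i ≠ 0 by omega), if_neg hpos.ne', heven i hpos hi]
  have hsym : ∀ j, j ≤ N → H (N - j) = H j := by
    intro j hj
    simp only [hH]
    refine Finset.sum_bij' (fun i _ => (N - i) % N) (fun i _ => (N - i) % N) ?_ ?_ ?_ ?_ ?_
    · exact fun i _ => Finset.mem_range.2 (Nat.mod_lt _ (by omega))
    · exact fun i _ => Finset.mem_range.2 (Nat.mod_lt _ (by omega))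
    · intro i hi
      rw [Finset.mem_range] at hi
      rcases Nat.eq_zero_or_pos i with rfl | hpos
      · simp
      · rw [Nat.mod_eq_of_lt (show N - i < N by omega),
          Nat.mod_eq_of_lt (show N - (N - i) < N by omega)]
        omega
    · intro i hi
      rw [Finset.mem_range] at hi
      rcases Nat.eq_zero_or_pos i with rfl | hpos
      · simp
      · rw [Nat.mod_eq_of_lt (show N - i < N by omega),
          Nat.mod_eq_of_lt (show N - (N - i) < N by omega)]
        omega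
    · intro i hi
      rw [hfeven i hi]
      rw [Finset.mem_range] at hi
      rcases Nat.eq_zero_or_pos i with rfl | hpos
      · simp
      · have e1 : (ζ ^ i) ^ (N - j) = ((ζ ^ i) ^ j)⁻¹ :=
          (inv_pow_eq hj (by rw [← pow_mul, mul_comm, pow_mul, hζ.pow_eq_one, one_pow])).symm
        rw [Nat.mod_eq_of_lt (show N - i < N by omega), e1,
          ← inv_pow_eq hi.le hζ.pow_eq_one, inv_pow]
  have hlow : ∀ j, 1 ≤ j → j ≤ h → H j = 0 := by
    intro j hj1 hj2
    have e : ∑ i ∈ Finset.range N, ev N j (ζ ^ i) * g i = 2 * H 0 - H j - H (N - j) := by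
      simp only [hH, Finset.mul_sum, ← Finset.sum_sub_distrib]
      refine Finset.sum_congr rfl fun i _ => ?_
      rcases Nat.eq_zero_or_pos i with rfl | hpos
      · rw [pow_zero, ev_one]; simp [hf]; ring
      · simp only [hf, if_neg hpos.ne', ev]; ring
    rw [hg j hj1 hj2, h0, hsym j (by omega)] at e
    linear_combination e / 2
  have hall : ∀ j, j < N → H j = 0 := by
    intro j hj
    rcases Nat.eq_zero_or_pos j with rfl | hj0
    · exact h0
    · by_cases hjh : j ≤ h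
      · exact hlow j hj0 hjh
      · rw [← hsym j hj.le]; exact hlow _ (by omega) (by omega)
  have hz : ∑ j ∈ Finset.range N, (ζ ^ (N - k)) ^ j * H j = (N : ℂ) * f k := by
    simp only [hH, Finset.mul_sum]
    rw [Finset.sum_comm, Finset.sum_eq_single k]
    · rw [Finset.sum_congr rfl fun j _ => show (ζ ^ (N - k)) ^ j * ((ζ ^ k) ^ j * f k) = f k by
        rw [← mul_assoc, ← mul_pow, ← pow_add, Nat.sub_add_cancel hk.le, hζ.pow_eq_one, one_pow,
          one_mul], Finset.sum_const, Finset.card_range, nsmul_eq_mul]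
    · intro i hi hne
      rw [Finset.mem_range] at hi
      have hd : ¬ N ∣ (N - k + i) := fun hd => by
        have := (dvd_iff_eq (show 0 < N - k + i by omega) (show N - k + i < 2 * N by omega)).1 hd
        omega
      rw [show ∑ j ∈ Finset.range N, (ζ ^ (N - k)) ^ j * ((ζ ^ i) ^ j * f i) =
          (∑ j ∈ Finset.range N, (ζ ^ j) ^ (N - k + i)) * f i by
        rw [Finset.sum_mul]
        refine Finset.sum_congr rfl fun j _ => ?_
        rw [← mul_assoc, ← mul_pow, ← pow_add, pow_right_comm], sum_root hζ, if_neg hd, zero_mul]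
    · exact fun hn => absurd (Finset.mem_range.2 hk) hn
  rw [Finset.sum_eq_zero fun j hj => by rw [hall j (Finset.mem_range.1 hj), mul_zero]] at hz
  have := (mul_eq_zero.1 hz.symm).resolve_left (Nat.cast_ne_zero.2 (by omega))
  simpa [hf, hk0.ne'] using this

end Roots

namespace CentData

variable {M : Ideal AlgInt} {σ : G} {N : ℕ} {ζ : ℂ} (D : CentData M σ N ζ)

/-- The element `σ` in the subgroup of index two. -/
def s : D.C0 := ⟨⟨σ, D.σmem⟩, D.σmem0⟩

/-- The value of the linear character. -/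
noncomputable def w (c : D.C0) : ℂ := ((D.l c : ℂˣ) : ℂ)

theorem w_pow_s (i : ℕ) : D.w (D.s ^ i) = ζ ^ i := by
  rw [w, map_pow, Units.val_pow_eq_pow_val]
  exact congrArg (· ^ i) D.val_σ

theorem w_pow (hζ : IsPrimitiveRoot ζ N) (c : D.C0) : D.w c ^ N = 1 := by
  obtain ⟨i, hi⟩ := D.range c
  rw [w, hi, Units.val_pow_eq_pow_val, D.val_σ, ← pow_mul, mul_comm, pow_mul, hζ.pow_eq_one,
    one_pow]

open scoped Classical in
/-- The class function on the centraliser. -/
noncomputable def beta (j : ℕ) (c : D.C) : ℂ :=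
  if h : c ∈ D.C0 then ev N j (D.w ⟨c, h⟩) else 0

theorem beta_coe (j : ℕ) (c : D.C0) : D.beta j (c : D.C) = ev N j (D.w c) := by
  rw [beta, dif_pos c.2]

theorem beta_eq_indFun [Fintype D.C] (hζ : IsPrimitiveRoot ζ N) {j : ℕ} (hj : j ≤ N) :
    D.beta j = indFun D.C0 ((fun _ => (1 : ℂ)) - fun c => ((D.l c ^ j : ℂˣ) : ℂ)) := by
  classical
  have hn : D.C0.Normal := Subgroup.normal_of_index_eq_two D.index_C0
  funext c
  by_cases hc : c ∈ D.C0
  · rw [beta, dif_pos hc, indFun]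
    set f : D.C0 → ℂ := (fun _ => (1 : ℂ)) - fun c => ((D.l c ^ j : ℂˣ) : ℂ) with hf
    have hfv : ∀ d, f d = 1 - D.w d ^ j := fun d => by
      simp [hf, w, Units.val_pow_eq_pow_val]
    have hval : ∀ x : D.C, extendByZero D.C0 f (x⁻¹ * c * x) =
        if x ∈ D.C0 then 1 - D.w ⟨c, hc⟩ ^ j else 1 - (D.w ⟨c, hc⟩ ^ j)⁻¹ := by
      intro x
      have hm : x⁻¹ * c * x ∈ D.C0 := by simpa using hn.conj_mem _ hc x⁻¹
      rw [extendByZero_mem D.C0 f hm, hfv]
      by_cases hx : x ∈ D.C0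
      · rw [if_pos hx, show (⟨_, hm⟩ : D.C0) = (⟨x, hx⟩ : D.C0)⁻¹ * ⟨c, hc⟩ * ⟨x, hx⟩ from rfl,
          w, map_mul, map_mul, map_inv, mul_comm (D.l ⟨x, hx⟩)⁻¹, inv_mul_cancel_right, w]
      · rw [if_neg hx]
        have hd : D.t⁻¹ * x⁻¹ ∈ D.C0 := by
          rw [Subgroup.mul_mem_iff_of_index_two D.index_C0]; simp [D.t_not_mem, hx]
        set d : D.C0 := ⟨_, hd⟩
        have e : (⟨_, hm⟩ : D.C0) = ⟨D.t * ((d * ⟨c, hc⟩ * d⁻¹ : D.C0) : D.C) * D.t⁻¹,
            hn.conj_mem _ (d * ⟨c, hc⟩ * d⁻¹).2 D.t⟩ := Subtype.ext (by simp [d]; group)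
        rw [e, w, D.inv, map_mul, map_mul, map_inv, mul_comm (D.l d), mul_inv_cancel_right, w,
          Units.val_inv_eq_inv_val, inv_pow]
    rw [Finset.sum_congr rfl fun x _ => hval x, Finset.sum_ite, Finset.sum_const, Finset.sum_const,
      nsmul_eq_mul, nsmul_eq_mul]
    have hc1 : ((Finset.univ.filter fun x : D.C => x ∈ D.C0).card) = Nat.card D.C0 := by
      rw [Nat.card_eq_fintype_card, Fintype.card_subtype]
    have hc2 : ((Finset.univ.filter fun x : D.C => x ∉ D.C0).card) = Nat.card D.C0 := by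
      have := Finset.card_filter_add_card_filter_not (s := (Finset.univ : Finset D.C))
        (fun x => x ∈ D.C0)
      rw [hc1, Finset.card_univ, ← Nat.card_eq_fintype_card, ← D.C0.index_mul_card,
        D.index_C0] at this
      omega
    rw [hc1, hc2, ← mul_add, ← mul_assoc, inv_mul_cancel₀ (card_ne_zero_complex D.C0), one_mul,
      inv_pow_eq hj (D.w_pow hζ _), ev]
    ring
  · rw [beta, dif_neg hc, indFun, Finset.sum_eq_zero, mul_zero]
    intro x _
    refine extendByZero_not_mem D.C0 _ fun h => hc ?_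
    simpa [mul_assoc] using hn.conj_mem _ h x

variable [Fintype G]

/-- The virtual character of the group. -/
noncomputable def psi [Fintype D.C] (j : ℕ) : G → ℂ := indFun D.C (D.beta j)

variable [Fintype D.C] [Fintype D.C0]

theorem isGeneralized_psi (hζ : IsPrimitiveRoot ζ N) {j : ℕ} (hj : j ≤ N) :
    IsGeneralizedCharacter G (D.psi j) := by
  rw [psi, D.beta_eq_indFun hζ hj]
  exact Involution.isGeneralized_indFun _ (Involution.isGeneralized_indFun _
    ⟨_, _, isCharacter_one, isCharacter_of_isIrr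
      (isIrrCharacter_linear ((powMonoidHom j).comp D.l)), rfl⟩)

theorem psi_apply (hζ : IsPrimitiveRoot ζ N) {j : ℕ} (hj : j ≤ N) (c : D.C0) (hc : D.l c ≠ 1) :
    D.psi j ((c : D.C) : G) = ev N j (D.w c) := by
  classical
  have hcf : IsClassFunction D.C (D.beta j) := by
    rw [D.beta_eq_indFun hζ hj]; exact isClassFunction_indFun _ _
  have hext : ∀ x : G, extendByZero D.C (D.beta j) (x⁻¹ * ((c : D.C) : G) * x) =
      if x ∈ D.C then D.beta j (c : D.C) else 0 := by
    intro x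
    by_cases hx : x ∈ D.C
    · rw [if_pos hx, show x⁻¹ * ((c : D.C) : G) * x =
        ((⟨x, hx⟩⁻¹ * (c : D.C) * ⟨x, hx⟩⁻¹⁻¹ : D.C) : G) by simp, extendByZero_coe, hcf]
    · rw [if_neg hx]
      by_cases hm : x⁻¹ * ((c : D.C) : G) * x ∈ D.C
      · rw [extendByZero_mem D.C _ hm, beta]
        split_ifs with h0
        · rw [w, D.ti c hc x hx hm h0, Units.val_one, ev_one]
        · rfl
      · exact extendByZero_not_mem D.C _ hm
  rw [psi, indFun, Finset.sum_congr rfl fun x _ => hext x, ← Finset.sum_filter, Finset.sum_const,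
    nsmul_eq_mul, ← Fintype.card_subtype, ← Nat.card_eq_fintype_card, ← mul_assoc,
    inv_mul_cancel₀ (card_ne_zero_complex D.C), one_mul, beta_coe]

theorem w_ne_one_of_ev {j : ℕ} {c : D.C0} (h : ev N j (D.w c) ≠ 0) : D.l c ≠ 1 := fun h' =>
  h (by rw [w, h', Units.val_one, ev_one])

/-- Sums over the subgroup of index two, by fibres. -/
theorem sum_eq (hζ : IsPrimitiveRoot ζ N) (hN : N ≠ 0) (F : D.C0 → ℂ) (f : ℕ → ℂ)
    (hF : ∀ (c : D.C0) (i : ℕ), i < N → D.w c = ζ ^ i → F c = f i) :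
    ∑ c, F c = (Nat.card D.l.ker : ℂ) * ∑ i ∈ Finset.range N, f i ∧
      Nat.card D.C0 = Nat.card D.l.ker * N := by
  classical
  have hφ : Function.Bijective fun p : D.l.ker × Fin N => (p.1 : D.C0) * D.s ^ (p.2 : ℕ) := by
    constructor
    · rintro ⟨a, i⟩ ⟨b, k⟩ h
      have h1 := congrArg D.w h
      simp only [w, map_mul, MonoidHom.mem_ker.1 a.2, MonoidHom.mem_ker.1 b.2, one_mul] at h1
      have h2 : ζ ^ (i : ℕ) = ζ ^ (k : ℕ) := by
        rw [← D.w_pow_s, ← D.w_pow_s]; exact h1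
      have h3 : i = k := Fin.ext (hζ.pow_inj i.2 k.2 h2)
      subst h3
      exact Prod.ext (Subtype.ext (mul_right_cancel h)) rfl
    · intro c
      obtain ⟨i, hi⟩ := D.range c
      have h1 : D.l D.s ^ N = 1 := Units.ext (by
        rw [Units.val_pow_eq_pow_val, Units.val_one]
        exact (congrArg (· ^ N) D.val_σ).trans hζ.pow_eq_one)
      refine ⟨(⟨c * (D.s ^ (i % N))⁻¹, ?_⟩, ⟨i % N, Nat.mod_lt _ (Nat.pos_of_ne_zero hN)⟩),
        inv_mul_cancel_right _ _⟩
      rw [MonoidHom.mem_ker, map_mul, map_inv, map_pow, hi, mul_inv_eq_one,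
        ← pow_mod_orderOf]
      conv_rhs => rw [← pow_mod_orderOf, Nat.mod_mod_of_dvd _ (orderOf_dvd_of_pow_eq_one h1)]
      rfl
  haveI := Fintype.ofFinite D.l.ker
  refine ⟨?_, ?_⟩
  · rw [← (Equiv.ofBijective _ hφ).sum_comp, Fintype.sum_prod_type]
    simp only [Equiv.ofBijective_apply]
    have hterm : ∀ (a : D.l.ker) (i : Fin N), F ((a : D.C0) * D.s ^ (i : ℕ)) = f i := fun a i =>
      hF _ i i.2 (by
        rw [← D.w_pow_s]; simp only [w, map_mul, MonoidHom.mem_ker.1 a.2, one_mul])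
    simp only [hterm]
    rw [Finset.sum_const, Finset.card_univ, ← Nat.card_eq_fintype_card, nsmul_eq_mul,
      Fin.sum_univ_eq_sum_range]
  · rw [← Nat.card_congr (Equiv.ofBijective _ hφ), Nat.card_prod, Nat.card_fin]

/-- Inner products with the virtual characters. -/
theorem classInner_psi (hζ : IsPrimitiveRoot ζ N) (hN : N ≠ 0) {j : ℕ} (hj : j ≤ N) {φ : G → ℂ}
    (hφ : IsClassFunction G φ) (g : ℕ → ℂ)
    (hg : ∀ (c : D.C0) (i : ℕ), i < N → D.w c = ζ ^ i → D.l c ≠ 1 → φ ((c : D.C) : G) = g i) :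
    classInner φ (D.psi j) = (∑ i ∈ Finset.range N, ev N j (ζ ^ i) * g i) / (2 * N) := by
  classical
  rw [psi, classInner_indFun_right D.C _ hφ, classInner]
  have h1 : ∑ c : D.C, φ (c : G) * conj (D.beta j c) =
      ∑ c : D.C0, φ ((c : D.C) : G) * conj (ev N j (D.w c)) := by
    rw [← Finset.sum_filter_add_sum_filter_not Finset.univ (fun c : D.C => c ∈ D.C0),
      Finset.sum_eq_zero (s := Finset.univ.filter fun c : D.C => ¬ c ∈ D.C0) (fun c hc => by
        rw [beta, dif_neg (Finset.mem_filter.1 hc).2, map_zero, mul_zero]), add_zero,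
      Finset.sum_subtype (p := fun c : D.C => c ∈ D.C0) _ (fun c => by simp)]
    exact Finset.sum_congr rfl fun c _ => by rw [beta_coe]
  obtain ⟨h2, h3⟩ := D.sum_eq hζ hN (fun c : D.C0 => φ ((c : D.C) : G) * conj (ev N j (D.w c)))
    (fun i => ev N j (ζ ^ i) * g i) fun c i hi hc => by
      rw [conj_ev hN hj (D.w_pow hζ c)]
      by_cases hl : D.l c = 1
      · rw [show ζ ^ i = 1 by rw [← hc, w, hl, Units.val_one], show D.w c = 1 by
          rw [w, hl, Units.val_one], ev_one, mul_zero, zero_mul]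
      · rw [hg c i hi hc hl, hc, mul_comm]
  rw [h1, h2, ← D.C0.index_mul_card, D.index_C0, h3]
  push_cast
  have hk : (Nat.card D.l.ker : ℂ) ≠ 0 := card_ne_zero_complex _
  field_simp

theorem psi_eq_zero_of_odd (hζ : IsPrimitiveRoot ζ N) (h2 : ∃ k, N = 2 ^ k) {j : ℕ} {ρ : G}
    (hρ : Odd (orderOf ρ)) : D.psi j ρ = 0 := by
  classical
  by_contra hne
  obtain ⟨x, hx, hb⟩ := Involution.exists_conj_of_indFun_ne_zero D.C _ hne
  rw [beta] at hb
  split_ifs at hb with h0
  · refine D.w_ne_one_of_ev hb ?_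
    obtain ⟨k, hk⟩ := h2
    rw [← orderOf_eq_one_iff]
    refine Nat.eq_one_of_dvd_coprimes (k := orderOf (D.l _)) (a := N) (b := orderOf ρ) ?_ ?_ ?_
    · rw [hk]; exact (Nat.coprime_two_left.2 hρ).pow_left k
    · refine orderOf_dvd_of_pow_eq_one (Units.ext ?_)
      rw [Units.val_pow_eq_pow_val, Units.val_one]
      exact D.w_pow hζ _
    · refine (orderOf_map_dvd D.l _).trans (dvd_of_eq ?_)
      rw [← Subgroup.orderOf_coe, ← Subgroup.orderOf_coe]
      show orderOf (x⁻¹ * ρ * x) = orderOf ρ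
      have := Involution.orderOf_conj x⁻¹ ρ
      rwa [inv_inv] at this
  · exact hb rfl

end CentData

end Cfsg.Agent.Lib.Char.DihBlock
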