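import Cfsg.Agent.Lib.Char.DihedralBlock
import Cfsg.Agent.Lib.Block.RegProj

/-!
# Members and values of the principal 2-block for dihedral Sylow 2-subgroups
-/

set_option autoImplicit false
set_option linter.unusedSectionVars false
set_option linter.style.haveILetI false

namespace Cfsg.Agent.Lib.Char.DihBlock

open Cfsg Cfsg.Agent.Lib Cfsg.Agent.Lib.Char Cfsg.Agent.Lib.Block
open scoped ComplexConjugate

universe u

variable {G : Type u} [Group G] [Finite G]

theorem regInner_combine [Fintype G] (a b c : ℂ) (f₁ f₂ f₃ f₄ φ : G → ℂ)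
    (h : ∀ x : G, ¬ 2 ∣ orderOf x → f₁ x + a * f₂ x + b * f₃ x + c * f₄ x = 0) :
    regInner 2 f₁ φ + a * regInner 2 f₂ φ + b * regInner 2 f₃ φ + c * regInner 2 f₄ φ = 0 := by
  simp only [regInner, classInner, Finset.mul_sum, ← Finset.sum_add_distrib]
  refine Finset.sum_eq_zero fun x _ => ?_
  split_ifs with hx
  · ring
  · linear_combination ((Nat.card G : ℂ)⁻¹ * conj (φ x)) * h x hx

theorem regInner_self_ne_zero [Fintype G] {φ : G → ℂ} (h1 : φ 1 ≠ 0) : regInner 2 φ φ ≠ 0 := by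
  intro h
  set f : G → ℂ := fun x => if 2 ∣ orderOf x then 0 else φ x with hf
  have he : classInner f f = regInner 2 φ φ := by
    rw [regInner, classInner, classInner]
    congr 1
    refine Finset.sum_congr rfl fun x _ => ?_
    simp only [hf]
    split_ifs <;> simp
  have := congrFun (eq_zero_of_classInner_self f (he.trans h)) 1
  simp only [hf, orderOf_one, Pi.zero_apply] at this
  rw [if_neg (by norm_num)] at this
  exact h1 this

theorem main {M : Ideal AlgInt} (hM : IsPModular 2 M) {n : ℕ} (hn : 3 ≤ n) {σ : G}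
    (hσo : orderOf σ = 2 ^ (n - 1)) {ζ : ℂ} (hζ : IsPrimitiveRoot ζ (2 ^ (n - 1)))
    (D : CentData M σ (2 ^ (n - 1)) ζ) :
    Nat.card (principalBlock M G) = 3 + 2 ^ (n - 2) ∧
      ∃ (χ₁ χ₂ χ₃ : IrrCharacter G) (χ' : Fin (2 ^ (n - 2) - 1) → IrrCharacter G) (δ₁ δ₂ δ₃ : ℤ),
        (δ₁ = 1 ∨ δ₁ = -1) ∧ (δ₂ = 1 ∨ δ₂ = -1) ∧ (δ₃ = 1 ∨ δ₃ = -1) ∧ Function.Injective χ' ∧
        (χ₁ : G → ℂ) ≠ (fun _ => 1) ∧ (χ₂ : G → ℂ) ≠ (fun _ => 1) ∧
        (χ₃ : G → ℂ) ≠ (fun _ => 1) ∧ χ₁ ≠ χ₂ ∧ χ₁ ≠ χ₃ ∧ χ₂ ≠ χ₃ ∧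
        (∀ j, χ' j ≠ χ₁ ∧ χ' j ≠ χ₂ ∧ χ' j ≠ χ₃ ∧ (χ' j : G → ℂ) ≠ (fun _ => 1)) ∧
        principalBlock M G = {χ : IrrCharacter G | (χ : G → ℂ) = (fun _ => 1) ∨ χ = χ₁ ∨ χ = χ₂ ∨
          χ = χ₃ ∨ ∃ j, χ = χ' j} ∧
        (∀ l : ℕ, 0 < l → l < 2 ^ (n - 1) → (χ₁ : G → ℂ) (σ ^ l) = δ₁ ∧
          (χ₂ : G → ℂ) (σ ^ l) = δ₂ * (-1) ^ (l + 1) ∧
          (χ₃ : G → ℂ) (σ ^ l) = δ₃ * (-1) ^ (l + 1) ∧
          ∀ j : Fin (2 ^ (n - 2) - 1), (χ' j : G → ℂ) (σ ^ l) =
            δ₁ * (ζ ^ (((j : ℕ) + 1) * l) + (ζ ^ (((j : ℕ) + 1) * l))⁻¹)) ∧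
        ∀ ρ : G, Odd (orderOf ρ) → ∀ j : Fin (2 ^ (n - 2) - 1),
          1 + δ₁ * (χ₁ : G → ℂ) ρ = -δ₂ * (χ₂ : G → ℂ) ρ - δ₃ * (χ₃ : G → ℂ) ρ ∧
          1 + δ₁ * (χ₁ : G → ℂ) ρ = δ₁ * (χ' j : G → ℂ) ρ := by
  classical
  haveI := Fintype.ofFinite G
  haveI := Fintype.ofFinite D.C
  haveI := Fintype.ofFinite D.C0
  haveI := hM.2.1
  haveI : M.IsPrime := hM.2.1.isPrime
  haveI : Fact (Nat.Prime 2) := ⟨Nat.prime_two⟩
  set N := 2 ^ (n - 1) with hNdef
  set h := 2 ^ (n - 2) with hhdef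
  have hNh : N = 2 * h := by rw [hNdef, hhdef, ← pow_succ']; congr 1; omega
  obtain ⟨q, hq⟩ : ∃ q, h = 2 * q + 2 := by
    refine ⟨2 ^ (n - 3) - 1, ?_⟩
    have : h = 2 * 2 ^ (n - 3) := by rw [hhdef, ← pow_succ']; congr 1; omega
    have := Nat.one_le_two_pow (n := n - 3)
    omega
  set m := h - 1 with hmdef
  have hmodd : Odd m := ⟨q, by omega⟩
  have hN0 : N ≠ 0 := by omega
  have hN2 : ∃ k, N = 2 ^ k := ⟨n - 1, hNdef⟩
  let one : IrrCharacter G := oneIrr G
  let Ψ : ℕ → G → ℂ := fun j => D.psi j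
  have hgen : ∀ j ≤ h, IsGeneralizedCharacter G (Ψ j) := fun j hj =>
    D.isGeneralized_psi hζ (by omega)
  have hΨcf : ∀ j ≤ h, IsClassFunction G (Ψ j) := fun j hj => isClassFunction_of_generalized (hgen j hj)
  have hodd : ∀ j, ∀ ρ : G, Odd (orderOf ρ) → Ψ j ρ = 0 := fun j ρ hρ =>
    D.psi_eq_zero_of_odd hζ hN2 hρ
  have hΨ1 : ∀ j, Ψ j 1 = 0 := fun j => hodd j 1 (by rw [orderOf_one]; exact odd_one)
  have hii : ∀ j k, 1 ≤ j → j ≤ h → 1 ≤ k → k ≤ h → classInner (Ψ j) (Ψ k) =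
      2 + (if j = k then (1 : ℂ) else 0) + if j = h ∧ k = h then (1 : ℂ) else 0 := by
    intro j k j1 j2 k1 k2
    rw [D.classInner_psi hζ hN0 (show k ≤ N by omega) (hΨcf j j2) (fun i => ev N j (ζ ^ i))
      fun c i _ hc hl => by rw [← hc]; exact D.psi_apply hζ (by omega) c hl]
    have e : ∀ i, ev N k (ζ ^ i) * ev N j (ζ ^ i) =
        2 * ev N k (ζ ^ i) - ev N k (ζ ^ i) * ((ζ ^ i) ^ j + (ζ ^ i) ^ (N - j)) := fun i => by
      rw [show ev N j (ζ ^ i) = 2 - ((ζ ^ i) ^ j + (ζ ^ i) ^ (N - j)) by rw [ev]; ring]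
      ring
    rw [Finset.sum_congr rfl fun i _ => e i, Finset.sum_sub_distrib, ← Finset.mul_sum,
      sum_ev hζ hNh k1 k2, sum_ev_pair hζ hNh k1 k2 j1 j2]
    simp only [eq_comm (a := k) (b := j), and_comm (a := k = h) (b := j = h)]
    have : (N : ℂ) ≠ 0 := Nat.cast_ne_zero.2 hN0
    split_ifs <;> field_simp <;> ring
  have hone : ∀ j, 1 ≤ j → j ≤ h → classInner (Ψ j) (fun _ => 1) = 1 := by
    intro j j1 j2
    have e := D.classInner_psi hζ hN0 (show j ≤ N by omega)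
      (isClassFunction_of_isIrr (isIrrCharacter_one (G := G))) (fun _ => 1) fun _ _ _ _ _ => rfl
    rw [Finset.sum_congr rfl fun i _ => mul_one _, sum_ev hζ hNh j1 j2,
      div_self (by simp [hN0])] at e
    rw [classInner_conj_symm, e, map_one]
  -- the pairs of constituents
  have hJ : ∀ j : Fin m, 1 ≤ (j : ℕ) + 1 ∧ (j : ℕ) + 1 < h := fun j => by have := j.2; omega
  have hex := fun j : Fin m => Involution.exists_chars_of_norm_three
    (hgen _ (hJ j).2.le) (hΨ1 _) (by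
      rw [hii _ _ (hJ j).1 (hJ j).2.le (hJ j).1 (hJ j).2.le, if_pos rfl,
        if_neg (by intro hh; have := (hJ j).2; omega)]
      norm_num) (hone _ (hJ j).1 (hJ j).2.le)
  choose a b hab ha1 hb1 hdeg hval hF using hex
  have ha1' : ∀ j, a j ≠ one := fun j e => ha1 j (congrArg Subtype.val e)
  have hb1' : ∀ j, b j ≠ one := fun j e => hb1 j (congrArg Subtype.val e)
  let cJ : Fin m → IrrCharacter G → ℤ := fun j x =>
    (if x = one then (1 : ℤ) else 0) + (if x = b j then 1 else 0) - if x = a j then 1 else 0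
  have hcoef : ∀ (j : Fin m) (x : IrrCharacter G),
      classInner (Ψ ((j : ℕ) + 1)) (x : G → ℂ) = (cJ j x : ℂ) := by
    intro j x
    have e := hF j fun y => if y = x then (1 : ℂ) else 0
    rw [Finset.sum_eq_single x (fun y _ hy => by rw [if_neg hy, mul_zero])
      (fun hh => absurd (Finset.mem_univ x) hh), if_pos rfl, mul_one] at e
    refine e.trans ?_
    simp only [cJ]
    push_cast
    congr 1
    · congr 1 <;> simp only [eq_comm (b := x)] <;> rfl
    · simp only [eq_comm (b := x)]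
  choose L hL using generalized_classInner_int (hgen h le_rfl)
  have hpairF : ∀ j k, j ≤ h → ∀ (z : IrrCharacter G → ℤ),
      (∀ x : IrrCharacter G, classInner (Ψ j) (x : G → ℂ) = (z x : ℂ)) →
      classInner (Ψ ((k : Fin m) + 1 : ℕ)) (Ψ j) =
        ((z one : ℂ) + (z (b k) : ℂ) - (z (a k) : ℂ)) := by
    intro j k hj z hz
    rw [classInner_eq_sum (hΨcf j hj)]
    simp only [hz, map_intCast]
    exact hF k fun x => (z x : ℂ)
  have hcJone : ∀ k, cJ k one = 1 := fun k => by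
    simp only [cJ, if_pos rfl, if_neg (ha1' k).symm, if_neg (hb1' k).symm]
    norm_num
  have hpair : ∀ j k : Fin m, j ≠ k →
      ((if b j = b k then (1 : ℤ) else 0) + if a j = a k then 1 else 0) -
        ((if b j = a k then (1 : ℤ) else 0) + if a j = b k then 1 else 0) = 1 := by
    intro j k hjk
    have e := hpairF ((k : ℕ) + 1) j (hJ k).2.le (cJ k) (hcoef k)
    rw [hii _ _ (hJ j).1 (hJ j).2.le (hJ k).1 (hJ k).2.le,
      if_neg (fun hh => hjk (Fin.ext (Nat.succ_injective hh))),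
      if_neg (by intro hh; have := (hJ j).2; omega), hcJone] at e
    have e' : (2 : ℤ) = 1 + cJ k (b j) - cJ k (a j) := by
      have : ((2 : ℤ) : ℂ) = ((1 + cJ k (b j) - cJ k (a j) : ℤ) : ℂ) := by push_cast at e ⊢; linear_combination e
      exact_mod_cast this
    simp only [cJ, if_neg (ha1' j), if_neg (hb1' j)] at e'
    linarith
  have hL1 : L one = 1 := by
    have e := (hL one).symm.trans (hone h (by omega) le_rfl)
    exact_mod_cast e
  have hLab : ∀ j, L (b j) - L (a j) = 1 := by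
    intro j
    have e := hpairF h j le_rfl L hL
    rw [hii _ _ (hJ j).1 (hJ j).2.le (by omega) le_rfl,
      if_neg (by have := (hJ j).2; omega), if_neg (by intro hh; have := (hJ j).2; omega), hL1] at e
    have : ((L (b j) - L (a j) : ℤ) : ℂ) = ((1 : ℤ) : ℂ) := by push_cast at e ⊢; linear_combination -e
    exact_mod_cast this
  have hsq : ∑ x, L x * L x = 4 := by
    have e := classInner_eq_sum (φ := Ψ h) (hΨcf h le_rfl)
    rw [hii h h (by omega) le_rfl (by omega) le_rfl, if_pos rfl, if_pos ⟨rfl, rfl⟩] at e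
    simp only [hL, map_intCast] at e
    have : ((∑ x, L x * L x : ℤ) : ℂ) = ((4 : ℤ) : ℂ) := by push_cast; rw [← e]; norm_num
    exact_mod_cast this
  have hexp : ∀ j ≤ h, ∀ g : G, Ψ j g = ∑ x : IrrCharacter G,
      classInner (Ψ j) (x : G → ℂ) * (x : G → ℂ) g := by
    intro j hj g
    have e := congrFun (eq_sum_classInner_smul (hΨcf j hj)) g
    simpa only [Finset.sum_apply, Pi.smul_apply, smul_eq_mul] using e
  have hLdeg : ∑ x, L x * (charDegree (x : G → ℂ) : ℤ) = 0 := by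
    have e := hexp h le_rfl 1
    rw [hΨ1] at e
    simp only [hL, fun x : IrrCharacter G => apply_one_eq_charDegree (isCharacter_of_isIrr x.2)] at e
    exact_mod_cast e.symm
  have hdeg' : ∀ j, charDegree (a j : G → ℂ) = charDegree (b j : G → ℂ) + 1 := by
    intro j
    have e := hdeg j
    rw [apply_one_eq_charDegree (isCharacter_of_isIrr (a j).2),
      apply_one_eq_charDegree (isCharacter_of_isIrr (b j).2)] at e
    exact_mod_cast e
  obtain ⟨X, Y, X₂, X₃, e, e₂, e₃, he, he₂, he₃, hY, hlab, hX1, hX21, hX31, hX2, hX3, hX23, hYne, hLF⟩ :=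
    DihLabels.exists_labels hmodd (one := one) (deg := fun x => charDegree (x : G → ℂ))
      charDegree_one hdeg' ha1' hb1' hpair hL1 hLab hsq hLdeg
  -- coefficients
  have hcform : ∀ j x, cJ j x = (if x = one then (1 : ℤ) else 0) +
      e * ((if x = X then 1 else 0) - if x = Y j then 1 else 0) := by
    intro j x
    rcases hlab j with ⟨h1, h2, h3⟩ | ⟨h1, h2, h3⟩ <;> simp only [cJ, h1, h2, h3] <;> ring
  have hLform : ∀ x, L x = (if x = one then (1 : ℤ) else 0) + e * (if x = X then 1 else 0) +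
      e₂ * (if x = X₂ then 1 else 0) + e₃ * (if x = X₃ then 1 else 0) := by
    intro x
    have h1 := hLF fun y => if y = x then (1 : ℂ) else 0
    rw [Finset.sum_eq_single x (fun y _ hy => by rw [if_neg hy, mul_zero])
      (fun hh => absurd (Finset.mem_univ x) hh), if_pos rfl, mul_one] at h1
    have : ((L x : ℤ) : ℂ) = (((if x = one then (1 : ℤ) else 0) + e * (if x = X then 1 else 0) +
        e₂ * (if x = X₂ then 1 else 0) + e₃ * (if x = X₃ then 1 else 0) : ℤ) : ℂ) := by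
      rw [h1]; push_cast; simp only [eq_comm (b := x)]
    exact_mod_cast this
  -- identities at elements of odd order
  have hidJ : ∀ (ρ : G), Odd (orderOf ρ) → ∀ j,
      1 + (e : ℂ) * (X : G → ℂ) ρ - e * (Y j : G → ℂ) ρ = 0 := by
    intro ρ hρ j
    have e1 := hval j ρ
    rw [show Ψ ((j : ℕ) + 1) ρ = 0 from hodd _ ρ hρ] at e1
    rcases hlab j with ⟨h1, h2, h3⟩ | ⟨h1, h2, h3⟩ <;> rw [h1, h2] at e1 <;> rw [h3] <;>
      push_cast <;> linear_combination -e1
  have hidL : ∀ (ρ : G), Odd (orderOf ρ) →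
      1 + (e : ℂ) * (X : G → ℂ) ρ + e₂ * (X₂ : G → ℂ) ρ + e₃ * (X₃ : G → ℂ) ρ = 0 := by
    intro ρ hρ
    have e1 := hexp h le_rfl ρ
    rw [hodd h ρ hρ] at e1
    simp only [hL, hLF fun x => (x : G → ℂ) ρ] at e1
    exact e1.symm
  -- membership
  have hr0 : ∀ φ ψ : IrrCharacter G, φ ∈ principalBlock M G → ψ ∉ principalBlock M G →
      regInner 2 (φ : G → ℂ) (ψ : G → ℂ) = 0 := fun φ ψ hφ hψ =>
    regInner_eq_zero hM fun hs => hψ (sameBlock_trans (χ := oneIrr G) hφ hs)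
  have hr0' : ∀ φ ψ : IrrCharacter G, φ ∈ principalBlock M G → ψ ∉ principalBlock M G →
      regInner 2 (ψ : G → ℂ) (φ : G → ℂ) = 0 := fun φ ψ hφ hψ =>
    regInner_eq_zero hM fun hs => hψ (sameBlock_trans (χ := oneIrr G) hφ (sameBlock_symm hs))
  have hone0 : one ∈ principalBlock M G := oneIrr_mem
  have he0 : (e : ℂ) ≠ 0 := by rcases he with h1 | h1 <;> simp [h1]
  have he20 : (e₂ : ℂ) ≠ 0 := by rcases he₂ with h1 | h1 <;> simp [h1]
  have he30 : (e₃ : ℂ) ≠ 0 := by rcases he₃ with h1 | h1 <;> simp [h1]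
  have hnz : ∀ φ : IrrCharacter G, regInner 2 (φ : G → ℂ) (φ : G → ℂ) ≠ 0 := fun φ =>
    regInner_self_ne_zero (irr_degree_ne_zero φ.2)
  have hregJ : ∀ (j : Fin m) (φ : G → ℂ), regInner 2 (one : G → ℂ) φ +
      e * regInner 2 (X : G → ℂ) φ + (-e : ℂ) * regInner 2 (Y j : G → ℂ) φ = 0 := by
    intro j φ
    have := regInner_combine (e : ℂ) (-e : ℂ) 0 (one : G → ℂ) (X : G → ℂ) (Y j : G → ℂ) (one : G → ℂ) φ
      fun x hx => by
        have h1 := hidJ x (Nat.odd_iff.2 (by omega)) j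
        show (1 : ℂ) + _ + _ + 0 * _ = 0
        linear_combination h1
    linear_combination this
  have hj0 : Fin m := ⟨0, by omega⟩
  have hXmem : X ∈ principalBlock M G := by
    by_contra hX
    have h1 := hregJ hj0 (X : G → ℂ)
    rw [hr0 _ _ hone0 hX] at h1
    by_cases hYm : Y hj0 ∈ principalBlock M G
    · rw [hr0 _ _ hYm hX] at h1
      exact mul_ne_zero he0 (hnz X) (by linear_combination h1)
    · have h2 := hregJ hj0 (one : G → ℂ)
      rw [hr0' _ _ hone0 hX, hr0' _ _ hone0 hYm] at h2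
      exact hnz one (by linear_combination h2)
  have hYmem : ∀ j, Y j ∈ principalBlock M G := by
    intro j
    by_contra hYm
    have h1 := hregJ j (Y j : G → ℂ)
    rw [hr0 _ _ hone0 hYm, hr0 _ _ hXmem hYm] at h1
    exact mul_ne_zero (neg_ne_zero.2 he0) (hnz (Y j)) (by linear_combination h1)
  have hregL : ∀ φ : G → ℂ, regInner 2 (one : G → ℂ) φ + e * regInner 2 (X : G → ℂ) φ +
      e₂ * regInner 2 (X₂ : G → ℂ) φ + e₃ * regInner 2 (X₃ : G → ℂ) φ = 0 := fun φ =>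
    regInner_combine (e : ℂ) (e₂ : ℂ) (e₃ : ℂ) (one : G → ℂ) (X : G → ℂ) (X₂ : G → ℂ) (X₃ : G → ℂ) φ
      fun x hx => hidL x (Nat.odd_iff.2 (by omega))
  have hboth : X₂ ∈ principalBlock M G ∨ X₃ ∈ principalBlock M G := by
    by_contra hc
    push Not at hc
    set f : G → ℂ := fun g => 1 + (e : ℂ) * (X : G → ℂ) g with hf
    have hlin : ∀ φ : G → ℂ, regInner 2 f φ = regInner 2 (one : G → ℂ) φ + e * regInner 2 (X : G → ℂ) φ := by
      intro φ
      have := regInner_combine (-1) (-e : ℂ) 0 f (one : G → ℂ) (X : G → ℂ) f φ fun x _ => by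
        show 1 + (e : ℂ) * _ + -1 * (1 : ℂ) + _ + 0 * _ = 0
        ring
      linear_combination this
    have hcon : ∀ φ : G → ℂ, regInner 2 φ f = conj (regInner 2 f φ) := fun φ => (regInner_conj 2 φ f).symm
    have g1 := hregL (one : G → ℂ)
    have g2 := hregL (X : G → ℂ)
    rw [hr0' _ _ hone0 hc.1, hr0' _ _ hone0 hc.2, mul_zero, mul_zero, add_zero, add_zero,
      ← hlin] at g1
    rw [hr0' _ _ hXmem hc.1, hr0' _ _ hXmem hc.2, mul_zero, mul_zero, add_zero, add_zero,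
      ← hlin] at g2
    refine regInner_self_ne_zero (φ := f) ?_ ?_
    · intro hf1
      have h1 := hidJ 1 (by rw [orderOf_one]; exact odd_one) hj0
      rw [show 1 + (e : ℂ) * (X : G → ℂ) 1 = 0 from hf1, zero_sub, neg_eq_zero] at h1
      exact mul_ne_zero he0 (irr_degree_ne_zero (Y hj0).2) h1
    · rw [hlin, hcon, hcon, g1, g2, map_zero, mul_zero, add_zero]
  have hX2mem : X₂ ∈ principalBlock M G := by
    by_contra hc
    have h3 := hboth.resolve_left hc
    have h1 := hregL (X₂ : G → ℂ)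
    rw [hr0 _ _ hone0 hc, hr0 _ _ hXmem hc, hr0 _ _ h3 hc] at h1
    exact mul_ne_zero he20 (hnz X₂) (by linear_combination h1)
  have hX3mem : X₃ ∈ principalBlock M G := by
    by_contra hc
    have h2 := hboth.resolve_right hc
    have h1 := hregL (X₃ : G → ℂ)
    rw [hr0 _ _ hone0 hc, hr0 _ _ hXmem hc, hr0 _ _ h2 hc] at h1
    exact mul_ne_zero he30 (hnz X₃) (by linear_combination h1)
  -- values on the powers of `σ`
  have hσN : σ ^ N = 1 := hσo ▸ pow_orderOf_eq_one σ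
  have hzN : ∀ i, (ζ ^ i) ^ N = 1 := fun i => by
    rw [← pow_mul, mul_comm, pow_mul, hζ.pow_eq_one, one_pow]
  have hdet : ∀ χ : IrrCharacter G, χ ∈ principalBlock M G → ∀ g : ℕ → ℂ,
      (∀ i, 0 < i → i < N → g (N - i) = g i) →
      (∀ j : Fin m, ∑ i ∈ Finset.range N, ev N ((j : ℕ) + 1) (ζ ^ i) * g i = 2 * N * (cJ j χ : ℂ)) →
      ∑ i ∈ Finset.range N, ev N h (ζ ^ i) * g i = 2 * N * (L χ : ℂ) →
      ∀ i, 0 < i → i < N → (χ : G → ℂ) (σ ^ i) = g i := by
    intro χ hχ g hgev hgJ hgL i hi0 hiN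
    refine sub_eq_zero.1 (eq_zero_of_sum_ev hζ hNh (fun i => (χ : G → ℂ) (σ ^ i) - g i) ?_ ?_ i hi0 hiN)
    · intro k hk0 hk
      have e1 : σ ^ (N - k) = (σ ^ k)⁻¹ := eq_inv_of_mul_eq_one_left (by
        rw [← pow_add, Nat.sub_add_cancel hk.le, hσN])
      simp only [e1, D.even, hgev k hk0 hk]
    · intro j j1 j2
      have hv := D.classInner_psi hζ hN0 (show j ≤ N by omega) (isClassFunction_of_isIrr χ.2)
        (fun i => (χ : G → ℂ) (σ ^ i)) fun c i _ hc hl =>
          D.value χ hχ c i (Units.ext (by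
            rw [Units.val_pow_eq_pow_val, D.val_σ]; exact hc)) hl
      have hc : ∃ z : ℤ, classInner (Ψ j) (χ : G → ℂ) = (z : ℂ) ∧
          ∑ i ∈ Finset.range N, ev N j (ζ ^ i) * g i = 2 * N * (z : ℂ) := by
        rcases Nat.lt_or_ge j h with hlt | hge
        · refine ⟨cJ ⟨j - 1, by omega⟩ χ, ?_, ?_⟩
          · rw [← hcoef ⟨j - 1, by omega⟩ χ, show (j - 1) + 1 = j by omega]
          · rw [← hgJ ⟨j - 1, by omega⟩, show (j - 1) + 1 = j by omega]
        · rw [show j = h by omega]; exact ⟨L χ, hL χ, hgL⟩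
      obtain ⟨z, hz1, hz2⟩ := hc
      rw [classInner_conj_symm, show classInner (D.psi j) (χ : G → ℂ) = (z : ℂ) from hz1,
        map_intCast, eq_div_iff (by simp [hN0])] at hv
      simp only [mul_sub, Finset.sum_sub_distrib, ← hv, hz2]
      ring
  have hvalX : ∀ i, 0 < i → i < N → (X : G → ℂ) (σ ^ i) = (e : ℂ) := by
    refine hdet X hXmem (fun _ => (e : ℂ)) (fun _ _ _ => rfl) (fun j => ?_) ?_
    · rw [← Finset.sum_mul, sum_ev hζ hNh (hJ j).1 (hJ j).2.le, hcform, if_neg hX1, if_pos rfl,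
        if_neg (hYne j).1.symm]
      push_cast; ring
    · rw [← Finset.sum_mul, sum_ev hζ hNh (by omega) le_rfl, hLform, if_neg hX1, if_pos rfl,
        if_neg hX2, if_neg hX3]
      push_cast; ring
  have hsign : ∀ (W : IrrCharacter G) (d : ℤ), W ∈ principalBlock M G → (∀ j, cJ j W = 0) →
      L W = d → ∀ i, 0 < i → i < N → (W : G → ℂ) (σ ^ i) = -(d : ℂ) * (ζ ^ i) ^ h := by
    intro W d hW hcW hLW
    refine hdet W hW (fun i => -(d : ℂ) * (ζ ^ i) ^ h) (fun i hi0 hi => ?_) (fun j => ?_) ?_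
    · rw [← inv_pow_eq hi.le hζ.pow_eq_one, inv_pow, inv_pow_eq (show h ≤ N by omega) (hzN i),
        show N - h = h by omega]
    · rw [Finset.sum_congr rfl (fun i _ => mul_left_comm _ _ _), ← Finset.mul_sum,
        sum_ev_sign hζ hNh (hJ j).1 (hJ j).2.le, if_neg (by have := (hJ j).2; omega), hcW]
      simp
    · rw [Finset.sum_congr rfl (fun i _ => mul_left_comm _ _ _), ← Finset.mul_sum,
        sum_ev_sign hζ hNh (by omega) le_rfl, if_pos rfl, hLW]
      ring
  have hcX2 : ∀ j, cJ j X₂ = 0 := fun j => by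
    rw [hcform, if_neg hX21, if_neg hX2.symm, if_neg (hYne j).2.1.symm]; ring
  have hcX3 : ∀ j, cJ j X₃ = 0 := fun j => by
    rw [hcform, if_neg hX31, if_neg hX3.symm, if_neg (hYne j).2.2.1.symm]; ring
  have hLX2 : L X₂ = e₂ := by
    rw [hLform, if_neg hX21, if_neg hX2.symm, if_pos rfl, if_neg hX23]; ring
  have hLX3 : L X₃ = e₃ := by
    rw [hLform, if_neg hX31, if_neg hX3.symm, if_neg hX23.symm, if_pos rfl]; ring
  have hvalY : ∀ k : Fin m, ∀ i, 0 < i → i < N → (Y k : G → ℂ) (σ ^ i) =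
      (e : ℂ) * ((ζ ^ i) ^ ((k : ℕ) + 1) + (ζ ^ i) ^ (N - ((k : ℕ) + 1))) := by
    intro k
    have hk := (hJ k).2
    refine hdet (Y k) (hYmem k) _ (fun i hi0 hi => ?_) (fun j => ?_) ?_
    · rw [← inv_pow_eq hi.le hζ.pow_eq_one, inv_pow, inv_pow,
        inv_pow_eq (show (k : ℕ) + 1 ≤ N by omega) (hzN i),
        inv_pow_eq (show N - ((k : ℕ) + 1) ≤ N by omega) (hzN i),
        Nat.sub_sub_self (show (k : ℕ) + 1 ≤ N by omega), add_comm]
    · rw [Finset.sum_congr rfl (fun i _ => mul_left_comm _ _ _), ← Finset.mul_sum,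
        sum_ev_pair hζ hNh (hJ j).1 (hJ j).2.le (hJ k).1 hk.le,
        if_neg (show ¬ ((j : ℕ) + 1 = h ∧ (k : ℕ) + 1 = h) by omega), hcform, if_neg (hYne k).2.2.2,
        if_neg (hYne k).1]
      by_cases hjk : j = k
      · subst hjk; rw [if_pos rfl, if_pos rfl]; push_cast; ring
      · rw [if_neg (fun hh => hjk (hY hh).symm),
          if_neg (fun hh => hjk (Fin.ext (Nat.succ_injective hh)))]
        push_cast; ring
    · rw [Finset.sum_congr rfl (fun i _ => mul_left_comm _ _ _), ← Finset.mul_sum,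
        sum_ev_pair hζ hNh (by omega) le_rfl (hJ k).1 hk.le,
        if_neg (show h ≠ (k : ℕ) + 1 by omega), if_neg (show ¬ (h = h ∧ (k : ℕ) + 1 = h) by omega),
        hLform, if_neg (hYne k).2.2.2, if_neg (hYne k).1, if_neg (hYne k).2.1, if_neg (hYne k).2.2.1]
      push_cast; ring
  -- nothing else lies in the principal block
  have hset : principalBlock M G = {χ : IrrCharacter G | (χ : G → ℂ) = (fun _ => 1) ∨ χ = X ∨
      χ = X₂ ∨ χ = X₃ ∨ ∃ j, χ = Y j} := by
    ext χ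
    simp only [Set.mem_ofPred_eq]
    constructor
    · intro hχ
      by_contra hc
      push Not at hc
      obtain ⟨c1, c2, c3, c4, c5⟩ := hc
      have c1' : χ ≠ one := fun hh => c1 (congrArg Subtype.val hh)
      have hzero : (χ : G → ℂ) (σ ^ h) = 0 := by
        refine hdet χ hχ (fun _ => 0) (fun _ _ _ => rfl) (fun j => ?_) ?_ h (by omega) (by omega)
        · rw [hcform, if_neg c1', if_neg c2, if_neg (c5 j)]; simp
        · rw [hLform, if_neg c1', if_neg c2, if_neg c3, if_neg c4]; simp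
      have hh : σ ^ h = D.z := by rw [D.zdef, show N / 2 = h by omega]
      have hsb : MemLocalIdeal M (centralChar (fun _ : G => (1 : ℂ)) D.z -
          centralChar (χ : G → ℂ) D.z) := hχ D.z
      rw [centralChar, centralChar, ← hh, hzero, mul_zero, zero_div, sub_zero, mul_one, div_one, hh,
        ← D.Cdef, natCast_memLocalIdeal_iff hM] at hsb
      exact D.odd_index hsb
    · rintro (h1 | rfl | rfl | rfl | ⟨j, rfl⟩)
      · rw [show χ = one from Subtype.ext h1]; exact hone0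
      exacts [hXmem, hX2mem, hX3mem, hYmem j]
  have hcard : Nat.card (principalBlock M G) = 3 + h := by
    set T : Finset (IrrCharacter G) := insert one (insert X (insert X₂ (insert X₃ (Finset.univ.image Y))))
      with hT
    have hTB : principalBlock M G = (T : Set (IrrCharacter G)) := by
      rw [hset]; ext χ
      simp only [Set.mem_ofPred_eq, hT, Finset.coe_insert, Set.mem_insert_iff, Finset.coe_image,
        Finset.coe_univ, Set.image_univ, Set.mem_range]
      refine or_congr ⟨fun hh => Subtype.ext hh, fun hh => congrArg Subtype.val hh⟩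
        (or_congr Iff.rfl (or_congr Iff.rfl (or_congr Iff.rfl (exists_congr fun _ => eq_comm))))
    rw [hTB, Nat.card_coe_set_eq, Set.ncard_coe_finset, hT]
    rw [Finset.card_insert_of_notMem, Finset.card_insert_of_notMem, Finset.card_insert_of_notMem,
      Finset.card_insert_of_notMem, Finset.card_image_of_injective _ hY, Finset.card_univ,
      Fintype.card_fin]
    · omega
    all_goals simp only [Finset.mem_insert, Finset.mem_image, Finset.mem_univ, true_and, not_or,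
      not_exists]
    · exact fun j => (hYne j).2.2.1
    · exact ⟨hX23, fun j => (hYne j).2.1⟩
    · exact ⟨hX2, hX3, fun j => (hYne j).1⟩
    · exact ⟨hX1.symm, hX21.symm, hX31.symm, fun j => (hYne j).2.2.2⟩
  have hzh : ζ ^ h = -1 :=
    (hζ.pow (Nat.pos_of_ne_zero hN0) (show N = h * 2 by omega)).eq_neg_one_of_two_right
  have hne1 : ∀ W : IrrCharacter G, W ≠ one → (W : G → ℂ) ≠ fun _ => 1 :=
    fun W hW hh => hW (Subtype.ext hh)
  refine ⟨hcard, X, X₂, X₃, Y, e, e₂, e₃, he, he₂, he₃, hY, hne1 X hX1, hne1 X₂ hX21, hne1 X₃ hX31,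
    hX2, hX3, hX23, fun j => ⟨(hYne j).1, (hYne j).2.1, (hYne j).2.2.1, hne1 _ (hYne j).2.2.2⟩,
    hset, ?_, ?_⟩
  · intro l hl0 hlN
    have hs : (ζ ^ l) ^ h = (-1) ^ l := by rw [pow_right_comm, hzh]
    refine ⟨hvalX l hl0 hlN, ?_, ?_, fun j => ?_⟩
    · rw [hsign X₂ e₂ hX2mem hcX2 hLX2 l hl0 hlN, hs]; ring
    · rw [hsign X₃ e₃ hX3mem hcX3 hLX3 l hl0 hlN, hs]; ring
    · rw [hvalY j l hl0 hlN, ← inv_pow_eq (show (j : ℕ) + 1 ≤ N by have := (hJ j).2; omega) (hzN l),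
        ← pow_mul, mul_comm l]
  · intro ρ hρ j
    exact ⟨by linear_combination hidL ρ hρ, by linear_combination hidJ ρ hρ j⟩

end Cfsg.Agent.Lib.Char.DihBlock
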