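import Cfsg.Agent.Lib.Char.DihedralCentral
import Cfsg.Agent.Lib.Involution.Exceptional
import Cfsg.Agent.Lib.Involution.PrincipalSection
import Cfsg.Agent.Lib.Block.FirstMain
import Cfsg.Agent.Lib.CharAux

/-!
# The cyclic part of the centraliser of the central involution of a dihedral Sylow group
-/

set_option autoImplicit false
set_option linter.unusedSectionVars false
set_option linter.style.haveILetI false

namespace Cfsg.Agent.Lib.Char.DihBlock

open Cfsg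

universe u

variable {G : Type u} [Group G] [Finite G]

/-- What is used of the centraliser of the central involution. -/
structure CentData (M : Ideal AlgInt) (σ : G) (N : ℕ) (ζ : ℂ) where
  C : Subgroup G
  C0 : Subgroup C
  l : C0 →* ℂˣ
  t : C
  z : G
  zdef : z = σ ^ (N / 2)
  Cdef : C = Subgroup.centralizer ({z} : Set G)
  odd_index : ¬ 2 ∣ C.index
  index_C0 : C0.index = 2
  t_not_mem : t ∉ C0
  inv : ∀ (c : C0) (h : t * (c : C) * t⁻¹ ∈ C0), l ⟨_, h⟩ = (l c)⁻¹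
  σmem : σ ∈ C
  σmem0 : (⟨σ, σmem⟩ : C) ∈ C0
  val_σ : ((l ⟨⟨σ, σmem⟩, σmem0⟩ : ℂˣ) : ℂ) = ζ
  range : ∀ c, ∃ i : ℕ, l c = l ⟨⟨σ, σmem⟩, σmem0⟩ ^ i
  ti : ∀ c : C0, l c ≠ 1 → ∀ w : G, w ∉ C → ∀ (hm : w⁻¹ * ((c : C) : G) * w ∈ C)
    (h0 : (⟨_, hm⟩ : C) ∈ C0), l ⟨⟨_, hm⟩, h0⟩ = 1
  value : ∀ χ : IrrCharacter G, χ ∈ principalBlock M G → ∀ (c : C0) (i : ℕ),
    l c = l ⟨⟨σ, σmem⟩, σmem0⟩ ^ i → l c ≠ 1 →
      (χ : G → ℂ) ((c : C) : G) = (χ : G → ℂ) (σ ^ i)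
  even : ∀ χ : IrrCharacter G, ∀ i : ℕ, (χ : G → ℂ) (σ ^ i)⁻¹ = (χ : G → ℂ) (σ ^ i)

theorem exists_centData (M : Ideal AlgInt) (hM : IsPModular 2 M) (n : ℕ) (hn : 3 ≤ n)
    (P : Sylow 2 G) (σ τ : G) (hσ : σ ∈ (P : Subgroup G)) (hτ : τ ∈ (P : Subgroup G))
    (hσo : orderOf σ = 2 ^ (n - 1)) (hτo : orderOf τ = 2) (hrel : τ * σ * τ⁻¹ = σ⁻¹)
    (hgen : Subgroup.closure ({σ, τ} : Set G) = (P : Subgroup G)) (ζ : ℂ)
    (hζ : IsPrimitiveRoot ζ (2 ^ (n - 1))) :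
    Nonempty (CentData M σ (2 ^ (n - 1)) ζ) := by
  classical
  haveI := Fintype.ofFinite G
  haveI : Fact (Nat.Prime 2) := ⟨Nat.prime_two⟩
  set N := 2 ^ (n - 1) with hN
  set z : G := σ ^ 2 ^ (n - 2) with hzdef
  have hN2 : N = 2 * 2 ^ (n - 2) := by rw [hN, ← pow_succ']; congr 1; omega
  have hN4 : 4 ≤ N := by
    rw [hN]
    exact le_trans (le_of_eq (by norm_num : 4 = 2 ^ 2)) (Nat.pow_le_pow_right (by norm_num) (by omega))
  have hzo : orderOf z = 2 := by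
    rw [hzdef, orderOf_pow' _ (by positivity), hσo, Nat.gcd_eq_right ⟨2, by rw [hN2]; ring⟩,
      hN2, Nat.mul_div_cancel _ (by positivity)]
  have hzi : z⁻¹ = z := Lib.Involution.inv_self hzo
  have hτi : τ⁻¹ = τ := Lib.Involution.inv_self hτo
  have hτz : τ * z = z * τ := by
    have e : τ * z * τ⁻¹ = z := by rw [hzdef, ← conj_pow, hrel, inv_pow]; exact hzi
    exact mul_inv_eq_iff_eq_mul.1 e
  set C := Subgroup.centralizer ({z} : Set G) with hC
  haveI := Fintype.ofFinite C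
  have hσC : σ ∈ C := Subgroup.mem_centralizer_singleton_iff.2 (Commute.self_pow σ _).eq
  have hτC : τ ∈ C := Subgroup.mem_centralizer_singleton_iff.2 hτz
  have hPC : (P : Subgroup G) ≤ C := by
    rw [← hgen, Subgroup.closure_le]
    rintro x (rfl | rfl)
    exacts [hσC, hτC]
  set S := P.subtype hPC
  set s : C := ⟨σ, hσC⟩ with hs
  set t : C := ⟨τ, hτC⟩ with ht
  have hSmem : ∀ x : C, x ∈ (S : Subgroup C) ↔ (x : G) ∈ (P : Subgroup G) := fun x => Iff.rfl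
  have hso : orderOf s = N := by rw [← Subgroup.orderOf_coe]; exact hσo
  have hto : orderOf t = 2 := by rw [← Subgroup.orderOf_coe]; exact hτo
  have hrel' : t * s * t⁻¹ = s⁻¹ := Subtype.ext hrel
  have hgen' : Subgroup.closure ({s, t} : Set C) = (S : Subgroup C) := by
    refine Subgroup.map_injective C.subtype_injective ?_
    rw [MonoidHom.map_closure, Set.image_pair]
    refine hgen.trans ?_
    ext x
    exact ⟨fun h => ⟨⟨x, hPC h⟩, h, rfl⟩, fun ⟨_, h, e⟩ => e ▸ h⟩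
  set zc : C := s ^ 2 ^ (n - 2) with hzc
  have hzcG : (zc : G) = z := by simp [hzc, hs, hzdef]
  have hcomm : ∀ c : C, Commute c zc := fun c => Subtype.ext (by
    rw [Subgroup.coe_mul, Subgroup.coe_mul, hzcG]
    exact Subgroup.mem_centralizer_singleton_iff.1 c.2)
  have hzco : orderOf zc = 2 := by rw [← Subgroup.orderOf_coe, hzcG, hzo]
  have htt : t * t = 1 := Lib.Involution.mul_self hto
  have hti : t⁻¹ = t := Lib.Involution.inv_self hto
  obtain ⟨C0, hs0, l0, hidx, ht0, hS0, hprim0, hexi0, hker0, hcardσ, hK0⟩ :=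
    Lib.Char.DihC.exists_hom S hn (show s ∈ (S : Subgroup C) from hσ)
      (show t ∈ (S : Subgroup C) from hτ) hso hto hrel' hgen' hcomm
  obtain ⟨k, -, hk⟩ := hprim0.eq_pow_of_pow_eq_one hζ.pow_eq_one
  set l : C0 →* ℂˣ := (powMonoidHom k).comp l0 with hl
  have hla : ∀ c, l c = l0 c ^ k := fun c => rfl
  have hsv : ((l ⟨s, hs0⟩ : ℂˣ) : ℂ) = ζ := by rw [hla, Units.val_pow_eq_pow_val, hk]
  have hprim : IsPrimitiveRoot ((l ⟨s, hs0⟩ : ℂˣ) : ℂ) N := hsv ▸ hζ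
  have hexi : ∀ c, ∃ i : ℕ, l c = l ⟨s, hs0⟩ ^ i := fun c => by
    obtain ⟨i, hi⟩ := hexi0 c
    exact ⟨i, by rw [hla, hla, hi, ← pow_mul, ← pow_mul, mul_comm]⟩
  have hkle : ∀ c, l c = 1 → l0 c = 1 := fun c h => by
    obtain ⟨i, hi⟩ := hexi0 c
    rw [hla, hi, ← pow_mul, mul_comm, pow_mul, ← hla, ← Units.val_eq_one, Units.val_pow_eq_pow_val,
      hsv, hζ.pow_eq_one_iff_dvd] at h
    rw [hi, ← Units.val_eq_one, Units.val_pow_eq_pow_val, hprim0.pow_eq_one_iff_dvd]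
    exact h
  have hker : ¬ 2 ∣ Nat.card l.ker := fun h => hker0 (h.trans (Subgroup.card_dvd_of_le fun c hc => hkle c hc))
  haveI : C0.Normal := Subgroup.normal_of_index_eq_two hidx
  set u : ℂˣ := l ⟨s, hs0⟩ with hu
  have hcj : ∀ c : C, ∀ d ∈ C0, c * d * c⁻¹ ∈ C0 := fun c d hd =>
    Subgroup.Normal.conj_mem inferInstance d hd c
  have hlN : ∀ c, l c ^ N = 1 := fun c => by
    obtain ⟨i, hi⟩ := hexi c
    rw [hi, ← pow_mul, mul_comm, pow_mul]
    rw [show u ^ N = 1 from Units.ext (by rw [Units.val_pow_eq_pow_val]; exact hprim.pow_eq_one),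
      one_pow]
  have hodd1 : ∀ c : C0, ¬ 2 ∣ orderOf c → l c = 1 := by
    intro c hc
    rw [← orderOf_eq_one_iff]
    exact Nat.eq_one_of_dvd_coprimes
      (((Nat.prime_two.coprime_iff_not_dvd).2 hc).pow_left _ : N.Coprime (orderOf c))
      (orderOf_dvd_of_pow_eq_one (hlN c)) (orderOf_map_dvd l c)
  have hkord : ∀ (v : C) (hv : v ∈ C0), l ⟨v, hv⟩ = 1 → orderOf v ∣ Nat.card l.ker := by
    intro v hv h
    have := orderOf_dvd_natCard (⟨⟨v, hv⟩, h⟩ : l.ker)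
    rwa [← Subgroup.orderOf_coe, ← Subgroup.orderOf_coe] at this
  have hinv : ∀ (c : C0) (h : t * (c : C) * t⁻¹ ∈ C0), l ⟨_, h⟩ = (l c)⁻¹ := by
    intro c h
    obtain ⟨i, hi⟩ := hexi c
    set v : C0 := (⟨s, hs0⟩ ^ i)⁻¹ * c with hv
    have hvk : v ∈ l.ker := by
      rw [MonoidHom.mem_ker, hv, map_mul, map_inv, map_pow, hi, inv_mul_cancel]
    have hvo : ¬ 2 ∣ orderOf v := fun hd => hker (hd.trans
      (Subgroup.orderOf_mk v hvk ▸ orderOf_dvd_natCard (⟨v, hvk⟩ : l.ker)))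
    have e : (⟨_, h⟩ : C0) = ((⟨s, hs0⟩ : C0) ^ i)⁻¹ * ⟨_, hcj t _ v.2⟩ := Subtype.ext (by
      have e1 : (c : C) = s ^ i * (v : C) := by simp [hv]
      have e2 : t * s ^ i * t⁻¹ = (s ^ i)⁻¹ := by rw [← conj_pow, hrel', inv_pow]
      simp only [Subgroup.coe_mul, Subgroup.coe_inv, SubgroupClass.coe_pow]
      rw [← e2, e1]; group)
    rw [e, map_mul, map_inv, map_pow, ← hi, hodd1 ⟨_, hcj t _ v.2⟩ (by
      rw [← Subgroup.orderOf_coe]
      show ¬ 2 ∣ orderOf (t * (v : C) * t⁻¹)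
      rwa [Lib.Involution.orderOf_conj, Subgroup.orderOf_coe]), mul_one]
  have hu1 : ∀ i : ℕ, u ^ i = 1 ↔ N ∣ i := fun i => by
    rw [← Units.val_eq_one, Units.val_pow_eq_pow_val]
    exact hprim.pow_eq_one_iff_dvd i
  have hsupp : ∀ (c : C) (hc0 : c ∈ C0), l ⟨c, hc0⟩ ≠ 1 → ∃ (i : ℕ) (d v : C),
      c = d * (s ^ i * v) * d⁻¹ ∧ ¬ N ∣ i ∧ l ⟨c, hc0⟩ = u ^ i ∧
      Commute v (s ^ i) ∧ ∃ hv : v ∈ C0, l ⟨v, hv⟩ = 1 := by
    intro c hc0 hc
    set g : C0 := ⟨c, hc0⟩ with hg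
    have hlg : l g ≠ 1 := hc
    obtain ⟨x, y, hxy, hcxy, hxp, hy⟩ := Lib.Block.exists_isPPart (p := 2) g
    have hly : l y = 1 := hodd1 y hy
    have hp : IsPGroup 2 (Subgroup.zpowers x) := Lib.Block.IsPElem.isPGroup_zpowers hxp
    let S0 : Sylow 2 C0 := Sylow.ofCard ((Subgroup.zpowers s).subgroupOf C0) (by
      have h1 := ((Subgroup.zpowers s).subgroupOf C0).card_mul_index
      rw [Nat.card_congr (Subgroup.subgroupOfEquivOfLe (Subgroup.zpowers_le.2 hs0)).toEquiv, hcardσ] at h1 ⊢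
      rw [← h1, Nat.factorization_mul (by omega) Subgroup.index_ne_zero_of_finite, Finsupp.add_apply,
        Nat.factorization_eq_zero_of_not_dvd hK0, Nat.prime_two.factorization_pow,
        Finsupp.single_eq_same, add_zero])
    obtain ⟨Q, hQ⟩ := hp.exists_le_sylow
    obtain ⟨e, he⟩ := MulAction.exists_smul_eq C0 Q S0
    have hm : e * x * e⁻¹ ∈ (S0 : Subgroup C0) := by
      rw [← he, Sylow.coe_subgroup_smul]
      exact Subgroup.smul_mem_pointwise_smul _ (MulAut.conj e) _ (hQ (Subgroup.mem_zpowers _))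
    have hm' : ((e * x * e⁻¹ : C0) : C) ∈ Subgroup.zpowers s := hm
    obtain ⟨i, hi⟩ := mem_powers_iff_mem_zpowers.2 hm'
    dsimp only at hi
    have hii : e * x * e⁻¹ = (⟨s, hs0⟩ : C0) ^ i := Subtype.ext (by rw [SubgroupClass.coe_pow, ← hi])
    refine ⟨i, ((e⁻¹ : C0) : C), ((e * y * e⁻¹ : C0) : C), ?_, ?_, ?_, ?_, (e * y * e⁻¹).2, ?_⟩
    · rw [show c = ((g : C0) : C) from rfl, ← hxy, hi]
      simp only [Subgroup.coe_mul, Subgroup.coe_inv]
      group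
    · intro hd
      apply hlg
      have : l (e * x * e⁻¹) = 1 := by rw [hii, map_pow]; exact (hu1 i).2 hd
      rw [map_mul, map_mul, map_inv, mul_comm (l e), mul_inv_cancel_right] at this
      rw [← hxy, map_mul, this, hly, one_mul]
    · have h1 : l (e * x * e⁻¹) = u ^ i := by rw [hii, map_pow]
      rw [map_mul, map_mul, map_inv, mul_comm (l e), mul_inv_cancel_right] at h1
      show l g = u ^ i
      rw [← hxy, map_mul, hly, mul_one, h1]
    · rw [hi]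
      show _ = _
      rw [← Subgroup.coe_mul, ← Subgroup.coe_mul]
      exact congrArg Subtype.val ((hcxy.symm.map (MulAut.conj e).toMonoidHom).eq)
    · show l (e * y * e⁻¹) = 1
      rw [map_mul, map_mul, map_inv, hly, mul_one, mul_inv_cancel]
  have hzc_zp : ∀ i : ℕ, ¬ N ∣ i → zc ∈ Subgroup.zpowers (s ^ i) := by
    intro i hi
    have hd : orderOf (s ^ i) ∣ 2 ^ (n - 1) := hN ▸ hso ▸ orderOf_pow_dvd i
    obtain ⟨k, -, hk⟩ := (Nat.dvd_prime_pow Nat.prime_two).1 hd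
    obtain ⟨w, hw⟩ := exists_prime_orderOf_dvd_card' (G := Subgroup.zpowers (s ^ i)) 2 (by
      rw [Nat.card_zpowers, hk]
      refine dvd_pow_self 2 fun h0 => hi ?_
      rw [h0, pow_zero, orderOf_eq_one_iff] at hk
      rw [← hso]; exact orderOf_dvd_iff_pow_eq_one.2 hk)
    rw [← Subgroup.orderOf_coe] at hw
    have e : zc = (w : C) := Lib.Char.DihC.involution_unique (g := s)
      (pow_mem (Subgroup.mem_zpowers s) _)
      ((Subgroup.zpowers_le.2 (pow_mem (Subgroup.mem_zpowers s) i)) w.2) hzco hw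
    rw [e]
    exact w.2
  have hzsupp : ∀ (c : C) (hc0 : c ∈ C0), l ⟨c, hc0⟩ ≠ 1 → z ∈ Subgroup.zpowers (c : G) := by
    intro c hc0 hc
    obtain ⟨i, d, v, rfl, hi, -, hvs, hv, hlv⟩ := hsupp c hc0 hc
    have hvo : ¬ 2 ∣ orderOf v := fun hd => hker (hd.trans (hkord v hv hlv))
    have hmem := (Lib.Block.exists_pow_of_parts rfl hvs.symm
      ⟨_, ((Nat.dvd_prime_pow Nat.prime_two).1 (hN ▸ hso ▸ orderOf_pow_dvd i)).choose_spec.2⟩ hvo).1
    have h1 : d * zc * d⁻¹ ∈ Subgroup.zpowers (d * (s ^ i * v) * d⁻¹) := by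
      obtain ⟨j, hj⟩ := (Subgroup.zpowers_le.2 hmem) (hzc_zp i hi)
      exact ⟨j, by dsimp only at hj ⊢; rw [conj_zpow, hj]⟩
    rw [(hcomm d).eq, mul_inv_cancel_right] at h1
    obtain ⟨j, hj⟩ := h1
    exact ⟨j, by rw [← hzcG, ← hj, Subgroup.coe_zpow]⟩
  have hdiv : N / 2 = 2 ^ (n - 2) := by omega
  refine ⟨{
    C := C, C0 := C0, l := l, t := t, z := z
    zdef := by rw [hzdef, hdiv]
    Cdef := hC
    odd_index := fun h => P.not_dvd_index (h.trans (Subgroup.index_dvd_of_le hPC))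
    index_C0 := hidx, t_not_mem := ht0, inv := hinv
    σmem := hσC, σmem0 := hs0, val_σ := hsv, range := hexi
    ti := ?_, value := ?_, even := ?_ }⟩
  · intro c hc w hw hm h0
    by_contra hne
    obtain ⟨j, hj⟩ := hzsupp c c.2 hc
    have h1 : w⁻¹ * z * w ∈ Subgroup.zpowers (w⁻¹ * ((c : C) : G) * w) :=
      ⟨j, by dsimp only at hj ⊢; rw [← hj]; simpa using (conj_zpow (a := w⁻¹) (b := ((c : C) : G)) (i := j))⟩
    have e := Lib.Char.DihC.involution_unique h1 (hzsupp ⟨_, hm⟩ h0 hne)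
      (by rw [show w⁻¹ * z * w = w⁻¹ * z * w⁻¹⁻¹ by rw [inv_inv], Lib.Involution.orderOf_conj, hzo]) hzo
    refine hw (Subgroup.mem_centralizer_singleton_iff.2 ?_)
    calc w * z = w * (w⁻¹ * z * w) := by rw [e]
      _ = z * w := by group
  · intro χ hχ c i0 hci hc
    obtain ⟨i, d, v, hcd, hi, hli, hvs, hv, hlv⟩ := hsupp c c.2 hc
    have hpow : σ ^ i = σ ^ i0 := by
      rw [pow_eq_pow_iff_modEq, hσo]
      have h : u ^ i = u ^ i0 := by rw [← hli]; exact hci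
      rw [pow_eq_pow_iff_modEq] at h
      rwa [show orderOf u = N from by
        rw [← orderOf_units, hu]; exact hprim.eq_orderOf.symm] at h
    have hcf := Lib.Char.isClassFunction_of_isIrr χ.2
    rw [← hpow, hcd, Subgroup.coe_mul, Subgroup.coe_mul, Subgroup.coe_mul, Subgroup.coe_inv, hcf,
      SubgroupClass.coe_pow]
    show (χ : G → ℂ) (σ ^ i * (v : G)) = _
    have hxp : ∃ k : ℕ, orderOf (σ ^ i) = 2 ^ k := by
      obtain ⟨k, -, hk⟩ := (Nat.dvd_prime_pow Nat.prime_two).1 (hσo ▸ orderOf_pow_dvd (x := σ) i)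
      exact ⟨k, hk⟩
    refine Lib.Involution.value_mul_core hM hxp ?_ hχ
    set X := Subgroup.centralizer ({σ ^ i} : Set G) with hX
    have hXC : X ≤ C := by
      intro g hg
      obtain ⟨j, hj⟩ := hzc_zp i hi
      have e : (σ ^ i) ^ j = z := by rw [← hzcG, ← hj]; simp [hs]
      refine Subgroup.mem_centralizer_singleton_iff.2 ?_
      rw [← e]
      exact ((show Commute g (σ ^ i) from Subgroup.mem_centralizer_singleton_iff.1 hg).zpow_right j).eq
    set K : Subgroup X := ((l.ker.map C0.subtype).map C.subtype).subgroupOf X with hK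
    have hKmem : ∀ g : X, g ∈ K ↔ ∃ h0 : (⟨g, hXC g.2⟩ : C) ∈ C0, l ⟨_, h0⟩ = 1 := by
      intro g
      simp only [hK, Subgroup.mem_subgroupOf, Subgroup.mem_map, Subgroup.coe_subtype,
        MonoidHom.mem_ker]
      constructor
      · rintro ⟨w, ⟨w', hw', rfl⟩, hw⟩
        have e : (⟨g, hXC g.2⟩ : C) = w' := Subtype.ext hw.symm
        exact ⟨e ▸ w'.2, by convert hw'⟩
      · rintro ⟨h0, h1⟩
        exact ⟨_, ⟨⟨_, h0⟩, h1, rfl⟩, rfl⟩
    haveI hKn : K.Normal := ⟨fun a ha b => by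
      obtain ⟨ha0, ha1⟩ := (hKmem a).1 ha
      rw [hKmem]
      refine ⟨hcj ⟨b, hXC b.2⟩ _ ha0, ?_⟩
      refine hodd1 _ fun hd => hker (hd.trans ?_)
      refine dvd_trans (dvd_of_eq ?_) (hkord _ ha0 ha1)
      rw [← Subgroup.orderOf_coe]
      exact Lib.Involution.orderOf_conj (⟨b, hXC b.2⟩ : C) ⟨a, hXC a.2⟩⟩
    have hKc : (Nat.card K).Coprime 2 := by
      rw [Nat.coprime_comm, Nat.prime_two.coprime_iff_not_dvd]
      intro hd
      obtain ⟨⟨w, hwK⟩, hw⟩ := exists_prime_orderOf_dvd_card' (G := K) 2 hd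
      obtain ⟨h0, h1⟩ := (hKmem w).1 hwK
      have := hkord _ h0 h1
      rw [← Subgroup.orderOf_coe] at this
      rw [← Subgroup.orderOf_coe, ← Subgroup.orderOf_coe] at hw
      exact hker (hw ▸ this)
    have hvX : (v : G) ∈ X := Subgroup.mem_centralizer_singleton_iff.2 (by
      have := congrArg Subtype.val hvs.eq
      simpa [hs] using this)
    exact ⟨⟨v, hvX⟩, Lib.Hall.le_pPrimeCore hKc ((hKmem _).2 ⟨hv, hlv⟩), rfl⟩
  · intro χ i
    rw [← inv_pow, ← hrel, conj_pow, Lib.Char.isClassFunction_of_isIrr χ.2]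

end Cfsg.Agent.Lib.Char.DihBlock
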