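import Cfsg.Agent.Lib.Involution.TransferEval
import Cfsg.Agent.Lib.Hall.Basic
import Mathlib.GroupTheory.Transfer
import Mathlib.GroupTheory.Sylow
import Mathlib.GroupTheory.SpecificGroups.Cyclic
import Mathlib.RingTheory.RootsOfUnity.Complex

/-!
# Groups with a central involution and dihedral Sylow 2-subgroup
-/

set_option autoImplicit false

namespace Cfsg.Agent.Lib.Char.DihC

open Subgroup

universe u

variable {C : Type u} [Group C]

/-- A cyclic subgroup has at most one involution. -/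
theorem involution_unique [Finite C] {g a b : C} (ha : a ∈ zpowers g) (hb : b ∈ zpowers g)
    (ha2 : orderOf a = 2) (hb2 : orderOf b = 2) : a = b := by
  have key : ∀ x ∈ zpowers g, orderOf x = 2 → x = g ^ (orderOf g / 2) := by
    intro x hx hx2
    obtain ⟨i, hi, rfl⟩ : ∃ i < orderOf g, g ^ i = x := by
      obtain ⟨i, hi⟩ := (mem_powers_iff_mem_zpowers.2 hx)
      exact ⟨i % orderOf g, Nat.mod_lt _ (orderOf_pos g), by rw [pow_mod_orderOf]; exact hi⟩
    have h1 : g ^ (i * 2) = 1 := by rw [pow_mul, ← hx2, pow_orderOf_eq_one]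
    obtain ⟨t, ht⟩ := orderOf_dvd_iff_pow_eq_one.2 h1
    have hi0 : i ≠ 0 := fun h => by rw [h, pow_zero, orderOf_one] at hx2; omega
    rcases t with _ | _ | t
    · omega
    · congr 1; omega
    · nlinarith
  rw [key a ha ha2, key b hb hb2]

variable {σ τ z : C} {n : ℕ}

/-- Elements of a dihedral group. -/
theorem mem_closure_dihedral (hτo : orderOf τ = 2) (hrel : τ * σ * τ⁻¹ = σ⁻¹) {x : C}
    (hx : x ∈ closure ({σ, τ} : Set C)) : x ∈ zpowers σ ∨ x * τ ∈ zpowers σ := by
  have htt : τ * τ = 1 := by have := pow_orderOf_eq_one τ; rwa [hτo, pow_two] at this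
  have hti : τ⁻¹ = τ := inv_eq_of_mul_eq_one_right htt
  have hc : ∀ y ∈ zpowers σ, τ * y * τ ∈ zpowers σ := by
    rintro y ⟨i, rfl⟩
    refine ⟨-i, ?_⟩
    have : τ * σ ^ i * τ⁻¹ = σ⁻¹ ^ i := by rw [← conj_zpow, hrel]
    rw [hti] at this
    dsimp only
    rw [this, inv_zpow', ]
  induction hx using closure_induction with
  | mem y hy =>
    rcases hy with rfl | rfl
    · exact Or.inl (mem_zpowers _)
    · exact Or.inr (htt ▸ one_mem _)
  | one => exact Or.inl (one_mem _)
  | mul a b _ _ ha hb =>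
    rcases ha with ha | ha <;> rcases hb with hb | hb
    · exact Or.inl (mul_mem ha hb)
    · exact Or.inr (mul_assoc a b τ ▸ mul_mem ha hb)
    · refine Or.inr ?_
      rw [show a * b * τ = a * τ * (τ * b * τ) by rw [← mul_assoc, ← mul_assoc, mul_assoc a τ τ, htt, mul_one]]
      exact mul_mem ha (hc b hb)
    · refine Or.inl ?_
      rw [show a * b = a * τ * (τ * (b * τ) * τ) by
        simp only [mul_assoc, htt, mul_one]; rw [← mul_assoc τ τ b, htt, one_mul]]
      exact mul_mem ha (hc _ hb)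
  | inv a _ ha =>
    rcases ha with ha | ha
    · exact Or.inl (inv_mem ha)
    · refine Or.inr ?_
      rw [show a⁻¹ * τ = τ * (a * τ)⁻¹ * τ by rw [mul_inv_rev, hti, ← mul_assoc τ τ, htt, one_mul]]
      exact hc _ (inv_mem ha)

variable [Finite C]

/-- The subgroup of index two and its faithful linear character modulo the odd core. -/
theorem exists_hom (S : Sylow 2 C) (hn : 3 ≤ n) (hσ : σ ∈ (S : Subgroup C))
    (hτ : τ ∈ (S : Subgroup C)) (hσo : orderOf σ = 2 ^ (n - 1)) (hτo : orderOf τ = 2)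
    (hrel : τ * σ * τ⁻¹ = σ⁻¹) (hgen : closure ({σ, τ} : Set C) = (S : Subgroup C))
    (hz : ∀ c : C, Commute c (σ ^ 2 ^ (n - 2))) :
    ∃ (C0 : Subgroup C) (hσ0 : σ ∈ C0) (l : C0 →* ℂˣ), C0.index = 2 ∧ τ ∉ C0 ∧
      (∀ x ∈ (S : Subgroup C), x ∈ C0 → x ∈ zpowers σ) ∧
      IsPrimitiveRoot ((l ⟨σ, hσ0⟩ : ℂˣ) : ℂ) (2 ^ (n - 1)) ∧
      (∀ c, ∃ i : ℕ, l c = l ⟨σ, hσ0⟩ ^ i) ∧ ¬ 2 ∣ Nat.card l.ker ∧
      Nat.card (zpowers σ) = 2 ^ (n - 1) ∧
      ¬ 2 ∣ ((zpowers σ).subgroupOf C0).index := by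
  classical
  haveI : Fact (Nat.Prime 2) := ⟨Nat.prime_two⟩
  set z := σ ^ 2 ^ (n - 2) with hzdef
  set N := 2 ^ (n - 1) with hN
  have hN2 : N = 2 * 2 ^ (n - 2) := by rw [hN, ← pow_succ']; congr 1; omega
  have hN4 : 4 ≤ N := by
    rw [hN]; exact le_trans (le_of_eq (by norm_num : 4 = 2 ^ 2)) (Nat.pow_le_pow_right (by norm_num) (by omega))
  have hzo : orderOf z = 2 := by
    rw [hzdef, orderOf_pow' _ (by positivity), hσo, Nat.gcd_eq_right ⟨2, by rw [hN2]; ring⟩,
      hN2, Nat.mul_div_cancel _ (by positivity)]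
  have hzσ : z ∈ zpowers σ := pow_mem (mem_zpowers σ) _
  have hτσ : τ ∉ zpowers σ := by
    intro h
    have e := hrel
    rw [show τ * σ * τ⁻¹ = σ by
      obtain ⟨i, rfl⟩ := h; group, eq_inv_iff_mul_eq_one, ← pow_two] at e
    have := Nat.le_of_dvd (by norm_num) (orderOf_dvd_of_pow_eq_one e)
    omega
  set Z : Subgroup (S : Subgroup C) := (zpowers σ).subgroupOf (S : Subgroup C) with hZ
  have hσS : zpowers σ ≤ (S : Subgroup C) := zpowers_le.2 hσ
  have htt : τ * τ = 1 := by have := pow_orderOf_eq_one τ; rwa [hτo, pow_two] at this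
  have hidx : Z.index = 2 := by
    refine index_eq_two_iff.2 ⟨⟨τ, hτ⟩, fun b => ?_⟩
    rcases mem_closure_dihedral hτo hrel (show (b : C) ∈ closure ({σ, τ} : Set C) by
      rw [hgen]; exact b.2) with h | h
    · refine Or.inr ⟨h, fun h' => hτσ ?_⟩
      have := mul_mem (inv_mem h) (show (b : C) * τ ∈ zpowers σ from h')
      rwa [inv_mul_cancel_left] at this
    · refine Or.inl ⟨h, fun h' => hτσ ?_⟩
      have := mul_mem (inv_mem (show (b : C) ∈ zpowers σ from h')) h
      rwa [inv_mul_cancel_left] at this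
  let φ : (S : Subgroup C) →* ℤˣ :=
    { toFun := fun g => if g ∈ Z then 1 else -1
      map_one' := if_pos Z.one_mem
      map_mul' := fun x y => by
        have := Subgroup.mul_mem_iff_of_index_two hidx (a := x) (b := y)
        by_cases hx : x ∈ Z <;> by_cases hy : y ∈ Z <;> simp [hx, hy, this] }
  have hCS : ¬ 2 ∣ (S : Subgroup C).index := S.not_dvd_index
  have htr : ∀ t : (S : Subgroup C), orderOf (t : C) = 2 → (t : C) ∉ zpowers σ →
      MonoidHom.transfer φ (t : C) = -1 := by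
    intro t ht htσ
    rw [Involution.transfer_eq_pow_of_fusion φ t]
    · have h1 : φ t = -1 := if_neg htσ
      rw [h1, (Nat.odd_iff.2 (by omega)).neg_one_pow]
    · intro k g hg
      have ht2 : (t : C) ^ 2 = 1 := orderOf_dvd_iff_pow_eq_one.1 (dvd_of_eq ht)
      rcases Nat.even_or_odd' k with ⟨j, rfl | rfl⟩
      · have e : (t : C) ^ (2 * j) = 1 := by rw [pow_mul, ht2, one_pow]
        have e' : t ^ (2 * j) = 1 := Subtype.ext (by simpa using e)
        rw [e', map_one]
        refine (congrArg φ (Subtype.ext ?_)).trans (map_one φ)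
        show g⁻¹ * (t : C) ^ (2 * j) * g = 1
        rw [e]; group
      · have e : (t : C) ^ (2 * j + 1) = t := by rw [pow_succ, pow_mul, ht2, one_pow, one_mul]
        have e' : t ^ (2 * j + 1) = t := Subtype.ext (by simpa using e)
        rw [e']
        have h1 : φ t = -1 := if_neg htσ
        rw [h1]
        refine if_neg fun h => htσ ?_
        have h' : g⁻¹ * (t : C) ^ (2 * j + 1) * g ∈ zpowers σ := h
        rw [e] at h'
        have hz' : g⁻¹ * (t : C) * g = z := involution_unique h' hzσ (by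
          rw [show g⁻¹ * (t : C) * g = MulAut.conj g⁻¹ t by simp, MulEquiv.orderOf_eq, ht]) hzo
        rw [show (t : C) = g * z * g⁻¹ by rw [← hz']; group, (hz g).eq, mul_inv_cancel_right]
        exact hzσ
  set ψ := MonoidHom.transfer φ
  have hψτ : ψ τ = -1 := htr ⟨τ, hτ⟩ hτo hτσ
  have hστo : orderOf (σ * τ) = 2 := by
    refine orderOf_eq_prime ?_ fun h => hτσ ?_
    · rw [pow_two, show σ * τ * (σ * τ) = σ * (τ * σ * τ⁻¹) * (τ * τ) by group, hrel, htt]; group
    · rw [eq_inv_of_mul_eq_one_right h]; exact inv_mem (mem_zpowers σ)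
  have hψσ : ψ σ = 1 := by
    have := htr ⟨σ * τ, mul_mem hσ hτ⟩ hστo (fun h => hτσ (by
      have := mul_mem (inv_mem (mem_zpowers σ)) h
      rwa [inv_mul_cancel_left] at this))
    rw [map_mul, hψτ] at this
    simpa using this
  set C0 := ψ.ker with hC0
  have hσ0 : σ ∈ C0 := hψσ
  have hτ0 : τ ∉ C0 := fun h => by
    rw [MonoidHom.mem_ker, hψτ] at h
    exact absurd h (by decide)
  have hidx0 : C0.index = 2 := by
    rw [hC0, index_ker]
    have : ψ.range = ⊤ := by
      rw [eq_top_iff]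
      intro u _
      rcases Int.units_eq_one_or u with rfl | rfl
      · exact one_mem _
      · exact ⟨τ, hψτ⟩
    rw [this, Nat.card_congr Subgroup.topEquiv.toEquiv, Nat.card_eq_fintype_card]
    rfl
  -- the cyclic Sylow subgroup of `C0`
  have hcardσ : Nat.card (zpowers σ) = N := by rw [Nat.card_zpowers, hσo]
  have hSc : Nat.card (S : Subgroup C) = 2 * N := by
    rw [← Z.card_mul_index, hidx, hZ, Nat.card_congr (subgroupOfEquivOfLe hσS).toEquiv, hcardσ,
      mul_comm]
  set K0 : Subgroup C0 := (zpowers σ).subgroupOf C0 with hK0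
  have hK0c : Nat.card K0 = N := by
    rw [hK0, Nat.card_congr (subgroupOfEquivOfLe (zpowers_le.2 hσ0)).toEquiv, hcardσ]
  have hK0i : ¬ 2 ∣ K0.index := by
    have h1 := K0.card_mul_index
    have h2 := C0.card_mul_index
    have h3 := (S : Subgroup C).card_mul_index
    rw [hK0c] at h1
    rw [← h1, hidx0, ← h3, hSc] at h2
    have h4 : K0.index = (S : Subgroup C).index :=
      Nat.eq_of_mul_eq_mul_left (show 0 < 2 * N by omega) (by rw [← h2]; ring)
    rwa [h4]
  let S0 : Sylow 2 C0 := Sylow.ofCard K0 (by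
    rw [hK0c, ← K0.card_mul_index, hK0c, Nat.factorization_mul (by omega) index_ne_zero_of_finite,
      Finsupp.add_apply, Nat.factorization_eq_zero_of_not_dvd hK0i, hN,
      Nat.prime_two.factorization_pow, Finsupp.single_eq_same, add_zero])
  have hcyc : IsCyclic S0 := by
    show IsCyclic K0
    haveI : IsCyclic (zpowers σ) := inferInstance
    exact isCyclic_of_injective (subgroupOfEquivOfLe (zpowers_le.2 hσ0)).toMonoidHom
      (subgroupOfEquivOfLe (zpowers_le.2 hσ0)).injective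
  have hmin : (Nat.card C0).minFac = 2 := by
    refine (Nat.minFac_eq_two_iff _).2 ?_
    rw [← K0.card_mul_index, hK0c, hN2, mul_assoc]
    exact dvd_mul_right _ _
  have hle := IsCyclic.normalizer_le_centralizer hmin hcyc
  set π := MonoidHom.transferSylow S0 hle
  set s : S0 := ⟨⟨σ, hσ0⟩, mem_zpowers σ⟩ with hs
  have hgen0 : ∀ x : S0, x ∈ zpowers s := by
    rintro ⟨⟨x, hx0⟩, hx⟩
    obtain ⟨i, hi⟩ := (hx : x ∈ zpowers σ)
    exact ⟨i, Subtype.ext (Subtype.ext (by simpa using hi))⟩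
  have hso : orderOf s = N := by rw [← orderOf_coe, ← orderOf_coe]; exact hσo
  obtain ⟨ζ, hζ⟩ : ∃ ζ : ℂ, IsPrimitiveRoot ζ N :=
    ⟨_, Complex.isPrimitiveRoot_exp N (by omega)⟩
  have hN0 : N ≠ 0 := by omega
  obtain ⟨u, rfl⟩ := hζ.isUnit hN0
  have hu : IsPrimitiveRoot u N := IsPrimitiveRoot.coe_units_iff.1 hζ
  let ω : S0 →* ℂˣ := monoidHomOfForallMemZpowers hgen0 (g' := u) (by rw [← hu.eq_orderOf, hso])
  have hω : ω s = u := monoidHomOfForallMemZpowers_apply_gen _ _
  set l := ω.comp π with hl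
  set k := (S0 : Subgroup C0).index with hk
  have hπ : π ⟨σ, hσ0⟩ = s ^ k := by
    rw [MonoidHom.transferSylow_eq_pow S0 hle _ (mem_zpowers σ : (⟨σ, hσ0⟩ : C0) ∈ (S0 : Subgroup C0))]
    rfl
  have hlσ : l ⟨σ, hσ0⟩ = u ^ k := by rw [hl, MonoidHom.comp_apply, hπ, map_pow, hω]
  have hkc : k.Coprime N := (Nat.prime_two.coprime_iff_not_dvd.2 S0.not_dvd_index).symm.pow_right _
  have hprim : IsPrimitiveRoot ((l ⟨σ, hσ0⟩ : ℂˣ) : ℂ) N := by
    rw [hlσ, Units.val_pow_eq_pow_val]
    exact hζ.pow_of_coprime k hkc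
  have hpowN : ∀ c, l c ^ N = 1 := fun c => by
    rw [hl, MonoidHom.comp_apply, ← map_pow]
    have : π c ^ N = 1 := orderOf_dvd_iff_pow_eq_one.1
      (hso ▸ orderOf_dvd_of_mem_zpowers (hgen0 (π c)))
    rw [this, map_one]
  haveI : NeZero N := ⟨hN0⟩
  have hexi : ∀ c, ∃ i : ℕ, l c = l ⟨σ, hσ0⟩ ^ i := fun c => by
    obtain ⟨i, -, hi⟩ := hprim.eq_pow_of_pow_eq_one (ξ := (l c : ℂ))
      (by rw [← Units.val_pow_eq_pow_val, hpowN, Units.val_one])
    exact ⟨i, Units.ext (by rw [Units.val_pow_eq_pow_val, hi])⟩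
  refine ⟨C0, hσ0, l, hidx0, hτ0, ?_, hprim, hexi, ?_, hcardσ, hK0i⟩
  · intro x hx hx0
    rcases mem_closure_dihedral hτo hrel (hgen ▸ hx : x ∈ closure ({σ, τ} : Set C)) with h | h
    · exact h
    · refine absurd ?_ hτ0
      have := mul_mem (inv_mem hx0) ((zpowers_le.2 hσ0) h)
      rwa [inv_mul_cancel_left] at this
  · have hinj : ∀ g ∈ (S0 : Subgroup C0), l g = 1 → g = 1 := by
      intro g hg h
      obtain ⟨i, hi⟩ := hgen0 ⟨g, hg⟩
      dsimp only at hi
      have hg' : g = (⟨σ, hσ0⟩ : C0) ^ i := (congrArg Subtype.val hi).symm.trans (by rw [hs]; simp)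
      rw [hg', map_zpow] at h
      have hd := (IsPrimitiveRoot.zpow_eq_one_iff_dvd hprim i).1
        (by rw [← Units.val_zpow_eq_zpow_val, h, Units.val_one])
      rw [hg', ← orderOf_dvd_iff_zpow_eq_one, orderOf_mk, hσo]
      exact hd
    intro h2
    obtain ⟨w, hw⟩ := exists_prime_orderOf_dvd_card' (G := l.ker) 2 h2
    rw [← orderOf_coe] at hw
    have hp : IsPGroup 2 (zpowers (w : C0)) :=
      IsPGroup.of_card (n := 1) (by rw [Nat.card_zpowers, hw, pow_one])
    obtain ⟨Q, hQ⟩ := hp.exists_le_sylow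
    obtain ⟨g, hg⟩ := MulAction.exists_smul_eq C0 Q S0
    have hm : g * (w : C0) * g⁻¹ ∈ (S0 : Subgroup C0) := by
      rw [← hg, Sylow.coe_subgroup_smul]
      exact smul_mem_pointwise_smul _ (MulAut.conj g) _ (hQ (mem_zpowers _))
    have hlw : l (w : C0) = 1 := w.2
    have := hinj _ hm (by rw [map_mul, map_mul, hlw, mul_one, map_inv, mul_inv_cancel])
    rw [conj_eq_one_iff] at this
    rw [this, orderOf_one] at hw
    omega

end Cfsg.Agent.Lib.Char.DihC
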