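import Cfsg.Agent.Lib.CharClifford.Extend
import Cfsg.Agent.Lib.CharClifford.Gallagher
import Cfsg.Agent.Lib.Char.Ito
import Cfsg.Agent.Lib.Char.Linear
import Cfsg.Agent.Lib.Char.Kernel
import Mathlib.Algebra.Order.Chebyshev
import Mathlib.GroupTheory.SchurZassenhaus

/-!
# Fully ramified characters below a cyclic Frobenius complement
-/

set_option autoImplicit false
set_option linter.style.haveILetI false

namespace Cfsg.Agent.Lib.Char.FrobeniusRamified

open Cfsg Cfsg.Agent.Lib Cfsg.Agent.Lib.Char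
open scoped ComplexConjugate

/-- The arithmetic core: few natural numbers of small total variance. -/
theorem core {ι : Type*} (t : Finset ι) (c : ι → ℕ) {m : ℕ} (ht : t.card + 1 ≤ m)
    (h : m * ∑ i ∈ t, c i ^ 2 = (∑ i ∈ t, c i) ^ 2 + (m - 1)) :
    m = 1 ∨ ∑ i ∈ t, c i = 1 ∨ (∑ i ∈ t, c i) + 1 = m := by
  set s := ∑ i ∈ t, c i with hs
  set q := ∑ i ∈ t, c i ^ 2 with hq
  have h1 : s ≤ q := Finset.sum_le_sum fun i _ => Nat.le_self_pow two_ne_zero _
  have h2 : s ^ 2 ≤ t.card * q := sq_sum_le_card_mul_sum_sq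
  obtain ⟨k, rfl⟩ : ∃ k, m = k + 1 := ⟨m - 1, by omega⟩
  rw [Nat.add_sub_cancel] at h
  have h3 : s ^ 2 ≤ k * q := h2.trans (Nat.mul_le_mul_right q (by omega))
  have h4 : s ≤ k := by nlinarith
  rcases Nat.lt_or_ge s 2 with h' | h'
  · rcases Nat.eq_zero_or_pos s with h0 | h0
    · left
      have : q = 0 := Finset.sum_eq_zero fun i hi => by
        have := Finset.sum_eq_zero_iff.1 (hs ▸ h0 : ∑ i ∈ t, c i = 0) i hi
        rw [this]; rfl
      rw [this, h0] at h
      simp at h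
      omega
    · right; left; omega
  · right; right
    by_contra hne
    have : s + 1 ≤ k := by omega
    nlinarith

/-- `m · Σ a² = (Σ a)² + m - 1` with at most `m` terms forces `Σ a ≡ ±1 (mod m)`. -/
theorem sum_mod {ι : Type*} [DecidableEq ι] (t : Finset ι) (a : ι → ℕ) {m : ℕ} (ht : t.card ≤ m)
    (hm : 0 < m) (h : m * ∑ i ∈ t, a i ^ 2 = (∑ i ∈ t, a i) ^ 2 + (m - 1)) :
    (m : ℤ) ∣ (∑ i ∈ t, a i : ℕ) - 1 ∨ (m : ℤ) ∣ (∑ i ∈ t, a i : ℕ) + 1 := by
  rcases Nat.lt_or_ge t.card m with hlt | hge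
  · rcases core t a hlt h with h1 | h1 | h1
    · exact Or.inl (h1 ▸ one_dvd _)
    · exact Or.inl (h1 ▸ by simp)
    · exact Or.inr ⟨1, by rw [mul_one]; omega⟩
  · have htne : t.Nonempty := Finset.card_pos.1 (by omega)
    obtain ⟨i₀, hi₀, hmin⟩ := t.exists_min_image a htne
    set z := a i₀ with hz
    set c : ι → ℕ := fun i => a i - z with hc
    have hac : ∀ i ∈ t, a i = z + c i := fun i hi => by
      have := hmin i hi
      simp only [hc]
      omega
    have e1 : ∑ i ∈ t, a i = m * z + ∑ i ∈ t, c i := by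
      rw [Finset.sum_congr rfl hac, Finset.sum_add_distrib, Finset.sum_const, smul_eq_mul,
        le_antisymm ht hge]
    have e2 : ∑ i ∈ t, a i ^ 2 = m * z ^ 2 + 2 * z * ∑ i ∈ t, c i + ∑ i ∈ t, c i ^ 2 := by
      rw [Finset.sum_congr rfl (fun i hi => by rw [hac i hi, add_sq]), Finset.sum_add_distrib,
        Finset.sum_add_distrib, Finset.sum_const, smul_eq_mul, le_antisymm ht hge, Finset.mul_sum]
    rw [e1, e2] at h
    have hc0 : c i₀ = 0 := by simp [hc, hz]
    have e3 : ∑ i ∈ t, c i = ∑ i ∈ t.erase i₀, c i := (Finset.sum_erase t hc0).symm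
    have e4 : ∑ i ∈ t, c i ^ 2 = ∑ i ∈ t.erase i₀, c i ^ 2 :=
      (Finset.sum_erase t (by rw [hc0]; rfl)).symm
    rw [e3, e4] at h
    rw [e1, e3]
    have h' : m * ∑ i ∈ t.erase i₀, c i ^ 2 = (∑ i ∈ t.erase i₀, c i) ^ 2 + (m - 1) := by nlinarith
    rcases core _ c (by rw [Finset.card_erase_of_mem hi₀]; omega) h' with h1 | h1 | h1
    · exact Or.inl (h1 ▸ one_dvd _)
    · refine Or.inl ⟨(z : ℤ), ?_⟩
      rw [h1]; push_cast; ring
    · refine Or.inr ⟨(z : ℤ) + 1, ?_⟩
      have h1' : ((∑ i ∈ t.erase i₀, c i : ℕ) : ℤ) + 1 = m := by exact_mod_cast h1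
      push_cast at h1' ⊢
      linear_combination h1'

universe u

variable {Γ : Type u} [Group Γ] [Fintype Γ]

/-- Restriction to an intermediate group with cyclic quotient. -/
theorem restrict_mod (X N : Subgroup Γ) [Fintype X] [Fintype N] [N.Normal] (hNX : N ≤ X)
    (hcyc : IsCyclic (X ⧸ N.subgroupOf X)) {θ : N → ℂ} (hθ : IsIrrCharacter N θ)
    (hinv : ∀ x : Γ, conjChar N x θ = θ) {ψ : Γ → ℂ} (hψ : IsCharacter Γ ψ) {e : ℕ}
    (hres : ∀ n : N, ψ n = e * θ n)
    (hnorm : classInner (fun x : X => ψ x) (fun x : X => ψ x) * ((N.relIndex X : ℕ) : ℂ) =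
      (e : ℂ) ^ 2 + ((N.relIndex X : ℕ) : ℂ) - 1) :
    (N.relIndex X : ℤ) ∣ (e : ℤ) - 1 ∨ (N.relIndex X : ℤ) ∣ (e : ℤ) + 1 := by
  classical
  let N' := N.subgroupOf X
  haveI := Fintype.ofFinite N'
  let θ' : N' → ℂ := fun n => θ (Subgroup.subgroupOfEquivOfLe hNX n)
  have hθ' : IsIrrCharacter N' θ' :=
    isIrrCharacter_comp hθ (Subgroup.subgroupOfEquivOfLe hNX).toMonoidHom
      (Subgroup.subgroupOfEquivOfLe hNX).surjective
  have hinv' : ∀ x : X, conjChar N' x θ' = θ' := fun x => funext fun n =>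
    congrFun (hinv (x : Γ)) (Subgroup.subgroupOfEquivOfLe hNX n)
  obtain ⟨η, hη, hηN⟩ := CharClifford.extends_of_cyclic hθ' hinv' hcyc
  have hψX : IsCharacter X (fun x : X => ψ x) := isCharacter_restrict hψ X
  obtain ⟨a, ha⟩ := isCharacter_eq_sum hψX
  set t := Finset.univ.filter fun ξ : IrrCharacter X => a ξ ≠ 0 with ht
  have hin : ∀ ξ : IrrCharacter X, classInner (fun x : X => ψ x) (ξ : X → ℂ) = (a ξ : ℂ) := by
    intro ξ
    rw [ha, classInner_sum_left, Finset.sum_eq_single ξ]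
    · rw [classInner_smul_left, classInner_irr_self ξ.2, mul_one]
    · intro ξ' _ hne
      rw [classInner_smul_left, classInner_irr_ne ξ'.2 ξ.2 (fun h => hne (Subtype.ext h)), mul_zero]
    · intro h; exact absurd (Finset.mem_univ _) h
  have hover : ∀ ξ ∈ t, classInner (fun n : N' => (ξ : X → ℂ) n) θ' ≠ 0 := by
    intro ξ hξ hzero
    obtain ⟨φ, hφ⟩ := exists_constituent (isCharacter_restrict (isCharacter_of_isIrr ξ.2) N')
      (fun h => irr_degree_ne_zero ξ.2 (by simpa using congrFun h 1))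
    have hsum : classInner (fun n : N' => ψ ((n : X) : Γ)) (φ : N' → ℂ) ≠ 0 := by
      have e1 : (fun n : N' => ψ ((n : X) : Γ)) = ∑ ξ' : IrrCharacter X,
          (a ξ' : ℂ) • fun n : N' => (ξ' : X → ℂ) n := funext fun n => by
        simpa using congrFun ha (n : X)
      rw [e1, classInner_sum_left]
      choose b hb using fun ξ' : IrrCharacter X => classInner_natCast
        (isCharacter_restrict (isCharacter_of_isIrr ξ'.2) N') (isCharacter_of_isIrr φ.2)
      simp only [classInner_smul_left, hb, ← Nat.cast_mul, ← Nat.cast_sum, ne_eq, Nat.cast_eq_zero,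
        Finset.sum_eq_zero_iff, Finset.mem_univ, true_implies]
      intro hall
      refine (Nat.mul_eq_zero.1 (hall ξ)).elim (Finset.mem_filter.1 hξ).2 fun h => hφ ?_
      rw [hb, h, Nat.cast_zero]
    have e2 : (fun n : N' => ψ ((n : X) : Γ)) = (e : ℂ) • θ' := funext fun n => by
      simpa using hres (Subgroup.subgroupOfEquivOfLe hNX n)
    rw [e2, classInner_smul_left] at hsum
    refine hsum ?_
    by_cases h : θ' = (φ : N' → ℂ)
    · rw [← h] at hφ; exact absurd hzero hφ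
    · rw [classInner_irr_ne hθ' φ.2 h, mul_zero]
  have hdeg : ∀ ξ ∈ t, (ξ : X → ℂ) 1 = θ' 1 := by
    intro ξ hξ
    obtain ⟨β, hβ, hβN, he⟩ := CharClifford.gallagher_exists N' hθ' (isCharacter_of_isIrr hη) hηN
      ξ.2 (hover ξ hξ)
    obtain ⟨ψ', hψ', he'⟩ := exists_irr_deflation hβ N' (fun n hn => hβN ⟨n, hn⟩)
    haveI : IsMulCommutative (X ⧸ N') := ⟨⟨fun x y => by
      obtain ⟨g, hg⟩ := hcyc.exists_generator
      obtain ⟨i, rfl⟩ := Subgroup.mem_zpowers_iff.1 (hg x)
      obtain ⟨j, rfl⟩ := Subgroup.mem_zpowers_iff.1 (hg y)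
      exact zpow_mul_comm g i j⟩⟩
    obtain ⟨d, τ, hτ, hτ'⟩ := hψ'
    have hb1 : β 1 = 1 := by
      rw [← he', ← hτ']
      show τ.character ((1 : X) : X ⧸ N') = 1
      rw [QuotientGroup.mk_one, Representation.char_one,
        Representation.IsIrreducible.finrank_eq_one_of_isMulCommutative τ, Nat.cast_one]
    rw [he, Pi.mul_apply, hb1, one_mul]
    exact hηN 1
  have hsum : ∑ ξ ∈ t, a ξ = e := by
    have h := congrFun ha 1
    simp only [Finset.sum_apply, Pi.smul_apply, smul_eq_mul] at h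
    rw [← Finset.sum_subset (Finset.subset_univ t) (fun ξ _ hξ => by
      rw [show a ξ = 0 by simpa [ht] using hξ, Nat.cast_zero, zero_mul]),
      Finset.sum_congr rfl fun ξ hξ => by rw [hdeg ξ hξ], ← Finset.sum_mul] at h
    have h1 := hres 1
    rw [OneMemClass.coe_one] at h1
    rw [OneMemClass.coe_one, h1, show θ' 1 = θ 1 from congrArg θ (map_one _)] at h
    exact_mod_cast (mul_right_cancel₀ (irr_degree_ne_zero hθ) h).symm
  have hcard : t.card ≤ N.relIndex X := by
    have h := CharClifford.classInner_indFun_self_invariant N' hθ' hinv'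
    obtain ⟨b, hb⟩ := isCharacter_eq_sum (isCharacter_indFun N' (isCharacter_of_isIrr hθ'))
    have hb' : ∀ ξ : IrrCharacter X, classInner (indFun N' θ') (ξ : X → ℂ) = (b ξ : ℂ) := by
      intro ξ
      rw [hb, classInner_sum_left, Finset.sum_eq_single ξ]
      · rw [classInner_smul_left, classInner_irr_self ξ.2, mul_one]
      · intro ξ' _ hne
        rw [classInner_smul_left, classInner_irr_ne ξ'.2 ξ.2 (fun h => hne (Subtype.ext h)), mul_zero]
      · intro h; exact absurd (Finset.mem_univ _) h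
    have h2 : classInner (indFun N' θ') (indFun N' θ') = ∑ ξ : IrrCharacter X, ((b ξ : ℂ) * b ξ) := by
      rw [classInner_eq_sum (isClassFunction_indFun N' θ')]
      exact Finset.sum_congr rfl fun ξ _ => by simp [hb']
    rw [h2] at h
    have h3 : ∑ ξ : IrrCharacter X, b ξ * b ξ = N'.index := by exact_mod_cast h
    rw [Subgroup.relIndex, ← h3, Finset.card_eq_sum_ones]
    refine le_trans (Finset.sum_le_sum fun ξ hξ => ?_) (Finset.sum_le_sum_of_subset (Finset.subset_univ t))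
    refine Nat.one_le_iff_ne_zero.2 (mul_self_ne_zero.2 fun h0 => hover ξ hξ ?_)
    have h4 := hb' ξ
    rw [h0, Nat.cast_zero, classInner_indFun N' θ' (isClassFunction_of_isIrr ξ.2)] at h4
    rw [classInner_conj_symm, h4, map_zero]
  have hsq : (N.relIndex X) * ∑ ξ ∈ t, a ξ ^ 2 = e ^ 2 + (N.relIndex X - 1) := by
    have h2 : classInner (fun x : X => ψ x) (fun x : X => ψ x) =
        ∑ ξ : IrrCharacter X, ((a ξ : ℂ) * a ξ) := by
      rw [classInner_eq_sum (isClassFunction_of_isCharacter hψX)]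
      exact Finset.sum_congr rfl fun ξ _ => by simp [hin]
    rw [h2, ← Finset.sum_subset (Finset.subset_univ t) (fun ξ _ hξ => by
      rw [show a ξ = 0 by simpa [ht] using hξ]; simp)] at hnorm
    have h1 : 1 ≤ N.relIndex X := Nat.one_le_iff_ne_zero.2 Subgroup.index_ne_zero_of_finite
    have : (((N.relIndex X) * ∑ ξ ∈ t, a ξ ^ 2 : ℕ) : ℂ) = ((e ^ 2 + (N.relIndex X - 1) : ℕ) : ℂ) := by
      push_cast [Nat.cast_sub h1]
      simp only [← sq] at hnorm
      linear_combination hnorm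
    exact_mod_cast this
  rw [← hsum] at hsq ⊢
  exact sum_mod t a hcard (Nat.pos_of_ne_zero Subgroup.index_ne_zero_of_finite) hsq

end Cfsg.Agent.Lib.Char.FrobeniusRamified
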