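import Cfsg.Agent.Lib.Char.FrobSchur
import Cfsg.Agent.Lib.CharClifford.Basic

/-!
# Real forms of complex representations
-/

set_option autoImplicit false
set_option linter.style.haveILetI false
set_option linter.unusedSectionVars false

namespace Cfsg.Agent.Lib.Char.RealRep

open Cfsg Cfsg.Agent.Lib Cfsg.Agent.Lib.Char Module Matrix
open scoped ComplexConjugate

universe u

variable {G : Type u} [Group G] [Fintype G] {n : ℕ}

/-- The squared norm of a vector, as a complex number. -/
theorem dot_star_self (w : Fin n → ℂ) :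
    star w ⬝ᵥ w = ((∑ i, Complex.normSq (w i) : ℝ) : ℂ) := by
  simp [dotProduct, Complex.normSq_eq_conj_mul_self]

/-- An invariant symmetric form gives a real form. -/
theorem exists_real_of_symm (ρ : Representation ℂ G (Fin n → ℂ)) [hirr : ρ.IsIrreducible]
    {M : Matrix (Fin n) (Fin n) ℂ} (hM0 : M ≠ 0) (hsym : Mᵀ = M)
    (hinv : ∀ g : G, (LinearMap.toMatrix' (ρ g))ᵀ * M * LinearMap.toMatrix' (ρ g) = M) :
    ∃ (d : ℕ) (R : Representation ℝ G (Fin d → ℝ)),
      ∀ g : G, ((LinearMap.trace ℝ (Fin d → ℝ) (R g) : ℝ) : ℂ) = ρ.character g := by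
  classical
  set X : G → Matrix (Fin n) (Fin n) ℂ := fun g => LinearMap.toMatrix' (ρ g) with hX
  have hXv : ∀ g v, X g *ᵥ v = ρ g v := fun g v => LinearMap.toMatrix'_mulVec (ρ g) v
  have hX1 : ∀ g, X g * X g⁻¹ = 1 := fun g => by
    simp only [hX]
    rw [← LinearMap.toMatrix'_comp, ← Module.End.mul_eq_comp, ← map_mul, mul_inv_cancel, map_one,
      Module.End.one_eq_id, LinearMap.toMatrix'_id]
  have hXm : ∀ a b, X (a * b) = X a * X b := fun a b => by
    simp only [hX]; rw [map_mul, Module.End.mul_eq_comp, LinearMap.toMatrix'_comp]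
  set H : Matrix (Fin n) (Fin n) ℂ := ∑ g : G, (X g)ᴴ * X g with hH
  have hHinv : ∀ x, (X x)ᴴ * H * X x = H := by
    intro x
    rw [hH, Finset.mul_sum, Finset.sum_mul]
    refine Fintype.sum_equiv (Equiv.mulRight x) _ _ fun g => ?_
    show (X x)ᴴ * ((X g)ᴴ * X g) * X x = (X (g * x))ᴴ * X (g * x)
    rw [hXm, Matrix.conjTranspose_mul]
    simp only [Matrix.mul_assoc]
  let q : (Fin n → ℂ) → ℝ := fun v => ∑ g : G, ∑ i, Complex.normSq ((X g *ᵥ v) i)
  have hq : ∀ v, star v ⬝ᵥ (H *ᵥ v) = ((q v : ℝ) : ℂ) := by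
    intro v
    rw [hH, Matrix.sum_mulVec, dotProduct_sum]
    simp only [q, Complex.ofReal_sum]
    refine Finset.sum_congr rfl fun g _ => ?_
    rw [← Complex.ofReal_sum, ← dot_star_self, star_mulVec, ← dotProduct_mulVec, Matrix.mulVec_mulVec]
  have hqpos : ∀ v, v ≠ 0 → 0 < q v := by
    intro v hv
    refine lt_of_lt_of_le ?_ (Finset.single_le_sum (f := fun g => ∑ i, Complex.normSq ((X g *ᵥ v) i))
      (fun g _ => Finset.sum_nonneg fun i _ => Complex.normSq_nonneg _) (Finset.mem_univ (1 : G)))
    obtain ⟨i, hi⟩ := Function.ne_iff.1 hv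
    refine lt_of_lt_of_le ?_ (Finset.single_le_sum (fun i _ => Complex.normSq_nonneg _) (Finset.mem_univ i))
    rw [hXv, map_one, Module.End.one_apply, Complex.normSq_pos]
    exact hi
  have hHker : ∀ v, H *ᵥ v = 0 → v = 0 := by
    intro v hv
    by_contra h
    have := hq v
    rw [hv, dotProduct_zero] at this
    exact (hqpos v h).ne' (Complex.ofReal_eq_zero.1 this.symm)
  have hMker : ∀ v, M *ᵥ v = 0 → v = 0 := by
    let U : Subrepresentation ρ := ⟨LinearMap.ker M.mulVecLin, fun g v hv => by
      rw [LinearMap.mem_ker, Matrix.mulVecLin_apply] at hv ⊢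
      have h1 : (X g)ᵀ *ᵥ (M *ᵥ (X g *ᵥ v)) = 0 := by
        simp only [Matrix.mulVec_mulVec, ← Matrix.mul_assoc]
        rw [hinv g, hv]
      rw [← hXv]
      generalize M *ᵥ (X g *ᵥ v) = u at h1 ⊢
      have h2 := congrArg (fun w => (X g⁻¹)ᵀ *ᵥ w) h1
      simp only [Matrix.mulVec_mulVec, Matrix.mulVec_zero] at h2
      rwa [← Matrix.transpose_mul, hX1, Matrix.transpose_one, Matrix.one_mulVec] at h2⟩
    haveI : IsSimpleOrder (Subrepresentation ρ) := hirr
    intro v hv
    rcases eq_bot_or_eq_top U with h | h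
    · have hmem : v ∈ U.toSubmodule := by
        show v ∈ LinearMap.ker M.mulVecLin
        rw [LinearMap.mem_ker, Matrix.mulVecLin_apply, hv]
      rw [h] at hmem
      exact (Submodule.mem_bot ℂ).1 hmem
    · refine absurd ?_ hM0
      have h' : LinearMap.ker M.mulVecLin = ⊤ := congrArg Subrepresentation.toSubmodule h
      refine Matrix.ext_iff_mulVec.2 fun w => ?_
      rw [Matrix.zero_mulVec, ← Matrix.mulVecLin_apply, ← LinearMap.mem_ker, h']
      exact Submodule.mem_top
  let eH : (Fin n → ℂ) ≃ₗ[ℂ] (Fin n → ℂ) := LinearEquiv.ofInjectiveEndo H.mulVecLin (by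
    rw [← LinearMap.ker_eq_bot, eq_bot_iff]
    exact fun v hv => (Submodule.mem_bot ℂ).2 (hHker v (LinearMap.mem_ker.1 hv)))
  let j : (Fin n → ℂ) → (Fin n → ℂ) := fun v => eH.symm (star (M *ᵥ v))
  have hj : ∀ v, H *ᵥ j v = star (M *ᵥ v) := fun v => eH.apply_symm_apply _
  have hadd : ∀ v w, j (v + w) = j v + j w := fun v w => by
    simp only [j, Matrix.mulVec_add, star_add, map_add]
  have hsmul : ∀ (a : ℂ) v, j (a • v) = conj a • j v := fun a v => by
    simp only [j, Matrix.mulVec_smul, star_smul, map_smul]; rfl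
  have hcomm : ∀ g v, j (X g *ᵥ v) = X g *ᵥ j v := by
    intro g v
    have h1 : (X g)ᴴ *ᵥ (H *ᵥ j (X g *ᵥ v)) = (X g)ᴴ *ᵥ (H *ᵥ (X g *ᵥ j v)) := by
      rw [hj]
      have e2 : (X g)ᴴ *ᵥ (H *ᵥ (X g *ᵥ j v)) = star (M *ᵥ v) := by
        simp only [Matrix.mulVec_mulVec, ← Matrix.mul_assoc]
        rw [hHinv, hj]
      have e1 : (X g)ᴴ *ᵥ star (M *ᵥ (X g *ᵥ v)) = star (M *ᵥ v) := by
        have hstar : ∀ u : Fin n → ℂ, star ((X g)ᵀ *ᵥ u) = (X g)ᴴ *ᵥ star u := by
          intro u
          rw [star_mulVec, ← Matrix.mulVec_transpose]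
          congr 1
        rw [← hstar]
        simp only [Matrix.mulVec_mulVec, ← Matrix.mul_assoc]
        rw [hinv g]
      rw [e1, e2]
    have h2 := congrArg (fun w => (X g⁻¹)ᴴ *ᵥ w) h1
    simp only [Matrix.mulVec_mulVec] at h2
    rw [← Matrix.mul_assoc, ← Matrix.mul_assoc, ← Matrix.conjTranspose_mul, hX1,
      Matrix.conjTranspose_one, Matrix.one_mul, Matrix.one_mul, ← Matrix.mulVec_mulVec] at h2
    exact sub_eq_zero.1 (hHker _ (by rw [Matrix.mulVec_sub, h2, sub_self]))
  let J2 : Module.End ℂ (Fin n → ℂ) :=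
    { toFun := fun v => j (j v)
      map_add' := fun v w => by rw [hadd, hadd]
      map_smul' := fun a v => by rw [hsmul, hsmul, Complex.conj_conj]; rfl }
  obtain ⟨c, hc⟩ := CharClifford.exists_smul_of_commute ρ J2 (fun g => LinearMap.ext fun v => by
    show j (j (ρ g v)) = ρ g (j (j v))
    rw [← hXv, ← hXv, hcomm, hcomm])
  have hcv : ∀ v, j (j v) = c • v := fun v =>
    LinearMap.congr_fun hc v
  haveI : Nontrivial (Fin n → ℂ) := by
    by_contra h
    rw [not_nontrivial_iff_subsingleton] at h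
    exact hM0 (Matrix.ext_iff_mulVec.2 fun w => Subsingleton.elim _ _)
  obtain ⟨v, hv⟩ := exists_ne (0 : Fin n → ℂ)
  set w := j v with hw
  have hw0 : w ≠ 0 := by
    intro h
    have := hj v
    rw [← hw, h, Matrix.mulVec_zero] at this
    exact hv (hMker v (star_eq_zero.1 this.symm))
  have hcq : c * (q v : ℂ) = (q w : ℂ) := by
    have h1 : star v ⬝ᵥ (H *ᵥ j w) = c * (q v : ℂ) := by
      rw [hw, hcv, Matrix.mulVec_smul, dotProduct_smul, hq, smul_eq_mul]
    rw [← h1, hj, star_dotProduct_star, dotProduct_comm (M *ᵥ w) v, dotProduct_mulVec,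
      show v ᵥ* M = M *ᵥ v by rw [← Matrix.mulVec_transpose, hsym],
      show M *ᵥ v = star (H *ᵥ w) by rw [hw, hj, star_star],
      show star (H *ᵥ w) ⬝ᵥ w = star (star w ⬝ᵥ (H *ᵥ w)) by rw [← star_dotProduct_star, star_star, dotProduct_comm],
      hq, star_star]
  set cr : ℝ := q w / q v with hcr
  have hcpos : 0 < cr := div_pos (hqpos w hw0) (hqpos v hv)
  have hceq : c = (cr : ℂ) := by
    rw [hcr, Complex.ofReal_div, eq_div_iff (by exact_mod_cast (hqpos v hv).ne')]
    exact hcq
  set r : ℝ := (Real.sqrt cr)⁻¹ with hr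
  have hrr : (r : ℂ) * r * c = 1 := by
    rw [hceq, ← Complex.ofReal_mul, ← Complex.ofReal_mul, hr, ← mul_inv, Real.mul_self_sqrt hcpos.le,
      inv_mul_cancel₀ hcpos.ne', Complex.ofReal_one]
  let σ : (Fin n → ℂ) → (Fin n → ℂ) := fun v => (r : ℂ) • j v
  have hσadd : ∀ v w, σ (v + w) = σ v + σ w := fun v w => by simp only [σ, hadd, smul_add]
  have hσsmul : ∀ (a : ℂ) v, σ (a • v) = conj a • σ v := fun a v => by
    simp only [σ, hsmul, smul_smul, mul_comm]
  have hσσ : ∀ v, σ (σ v) = v := fun v => by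
    simp only [σ, hsmul, smul_smul, hcv, Complex.conj_ofReal]
    rw [← mul_assoc, hrr, one_smul]
  have hσg : ∀ g v, σ (ρ g v) = ρ g (σ v) := fun g v => by
    simp only [σ, ← hXv, hcomm, Matrix.mulVec_smul]
  let W : Submodule ℝ (Fin n → ℂ) :=
    { carrier := {v | σ v = v}
      add_mem' := fun {a b} ha hb => by
        show σ (a + b) = a + b
        rw [hσadd, show σ a = a from ha, show σ b = b from hb]
      zero_mem' := by
        show σ 0 = 0
        simpa using hσsmul 0 0
      smul_mem' := fun t a ha => by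
        show σ (t • a) = t • a
        rw [RCLike.real_smul_eq_coe_smul (K := ℂ) t a, hσsmul, show σ a = a from ha]
        simp }
  let ρW : Representation ℝ G W :=
    { toFun := fun g => ((ρ g).restrictScalars ℝ).restrict (fun a (ha : σ a = a) => by
        show σ (ρ g a) = ρ g a
        rw [hσg, ha])
      map_one' := by ext a; simp
      map_mul' := fun g h => by
        apply LinearMap.ext
        intro a
        apply Subtype.ext
        simp }
  let b := Module.finBasis ℝ W
  have hli : LinearIndependent ℂ (fun i => ((b i : W) : Fin n → ℂ)) := by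
    rw [Fintype.linearIndependent_iff]
    intro z hz i
    have hre : (∑ i, ((z i).re : ℂ) • ((b i : W) : Fin n → ℂ)) +
        Complex.I • (∑ i, ((z i).im : ℂ) • ((b i : W) : Fin n → ℂ)) = 0 := by
      rw [Finset.smul_sum, ← Finset.sum_add_distrib, ← hz]
      refine Finset.sum_congr rfl fun i _ => ?_
      rw [smul_smul, ← add_smul, mul_comm Complex.I, Complex.re_add_im]
    set A : W := ∑ i, (z i).re • b i with hA
    set B : W := ∑ i, (z i).im • b i with hB
    have eA : (A : Fin n → ℂ) = ∑ i, ((z i).re : ℂ) • ((b i : W) : Fin n → ℂ) := by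
      rw [hA, Submodule.coe_sum]
      exact Finset.sum_congr rfl fun i _ => RCLike.real_smul_eq_coe_smul (K := ℂ) _ _
    have eB : (B : Fin n → ℂ) = ∑ i, ((z i).im : ℂ) • ((b i : W) : Fin n → ℂ) := by
      rw [hB, Submodule.coe_sum]
      exact Finset.sum_congr rfl fun i _ => RCLike.real_smul_eq_coe_smul (K := ℂ) _ _
    rw [← eA, ← eB] at hre
    have h2 := congrArg σ hre
    rw [hσadd, hσsmul, show σ (A : Fin n → ℂ) = A from A.2, show σ (B : Fin n → ℂ) = B from B.2,
      Complex.conj_I, neg_smul, show σ 0 = 0 from W.zero_mem] at h2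
    have hA0 : (A : Fin n → ℂ) = 0 := by
      have : (2 : ℂ) • (A : Fin n → ℂ) = 0 := by
        rw [two_smul]; linear_combination (norm := module) hre + h2
      exact (smul_eq_zero.1 this).resolve_left two_ne_zero
    rw [hA0, zero_add, smul_eq_zero] at hre
    have hB0 := hre.resolve_left Complex.I_ne_zero
    exact Complex.ext
      (Fintype.linearIndependent_iff.1 b.linearIndependent _ (by rw [← hA]; exact Subtype.ext hA0) i)
      (Fintype.linearIndependent_iff.1 b.linearIndependent _ (by rw [← hB]; exact Subtype.ext hB0) i)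
  have hspan : ⊤ ≤ Submodule.span ℂ (Set.range fun i => ((b i : W) : Fin n → ℂ)) := by
    intro x _
    have hmem : ∀ a, σ a = a → a ∈ Submodule.span ℂ (Set.range fun i => ((b i : W) : Fin n → ℂ)) := by
      intro a ha
      have := congrArg Subtype.val (b.sum_repr ⟨a, ha⟩)
      rw [Submodule.coe_sum] at this
      rw [show a = _ from this.symm]
      refine Submodule.sum_mem _ fun i _ => ?_
      rw [Submodule.coe_smul, RCLike.real_smul_eq_coe_smul (K := ℂ)]
      exact Submodule.smul_mem _ _ (Submodule.subset_span ⟨i, rfl⟩)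
    have e : x = (1 / 2 : ℂ) • (x + σ x) + (-Complex.I / 2) • (Complex.I • (x - σ x)) := by
      rw [smul_smul, show -Complex.I / 2 * Complex.I = 1 / 2 by
        field_simp; rw [Complex.I_sq]; ring]
      module
    rw [e]
    refine Submodule.add_mem _ (Submodule.smul_mem _ _ (hmem _ ?_)) (Submodule.smul_mem _ _ (hmem _ ?_))
    · rw [hσadd, hσσ, add_comm]
    · rw [hσsmul, sub_eq_add_neg, hσadd, ← neg_one_smul ℂ (σ x), hσsmul, hσσ, map_neg, map_one,
        Complex.conj_I]
      module
  let b' := Basis.mk hli hspan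
  refine ⟨_, { toFun := fun g => b.equivFun.conj (ρW g)
               map_one' := by rw [map_one]; exact LinearEquiv.conj_id _
               map_mul' := fun g h => by rw [map_mul]; exact LinearEquiv.conj_comp _ _ _ }, fun g => ?_⟩
  show ((LinearMap.trace ℝ _ (b.equivFun.conj (ρW g)) : ℝ) : ℂ) = _
  rw [LinearMap.trace_conj', LinearMap.trace_eq_matrix_trace ℝ b, Representation.character,
    LinearMap.trace_eq_matrix_trace ℂ b', Matrix.trace, Matrix.trace, Complex.ofReal_sum]
  refine Finset.sum_congr rfl fun i _ => ?_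
  simp only [Matrix.diag_apply, LinearMap.toMatrix_apply]
  have h1 := congrArg Subtype.val (b.sum_repr (ρW g (b i)))
  rw [Submodule.coe_sum] at h1
  have h2 : ρ g (b' i) = ∑ k, ((b.repr (ρW g (b i)) k : ℝ) : ℂ) • b' k := by
    simp only [b', Basis.coe_mk]
    refine h1.symm.trans (Finset.sum_congr rfl fun k _ => ?_)
    exact RCLike.real_smul_eq_coe_smul (K := ℂ) _ _
  rw [h2, b'.repr_sum_self]

/-- An irreducible character forces an irreducible representation. -/
theorem isIrreducible_of_character (ρ : Representation ℂ G (Fin n → ℂ))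
    (h : IsIrrCharacter G ρ.character) : ρ.IsIrreducible := by
  rcases irreducible_or_split ρ with h0 | h1 | ⟨U, U', hc, hU, hU'⟩
  · exact absurd (by rw [Representation.char_one, h0, Nat.cast_zero]) (irr_degree_ne_zero h)
  · exact h1
  · exfalso
    have he := character_isCompl ρ U U' hc
    set a := U.toRepresentation.character with ha
    set b := U'.toRepresentation.character with hb
    have hac : IsCharacter G a := isCharacter_character _
    have hbc : IsCharacter G b := isCharacter_character _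
    obtain ⟨i, hi⟩ := classInner_natCast hac hac
    obtain ⟨k, hk⟩ := classInner_natCast hac hbc
    obtain ⟨k', hk'⟩ := classInner_natCast hbc hac
    obtain ⟨l, hl⟩ := classInner_natCast hbc hbc
    have h1 := classInner_irr_self h
    rw [he, classInner_add_left, classInner_add_right, classInner_add_right, hi, hk, hk', hl] at h1
    have h2 : i + k + (k' + l) = 1 := by exact_mod_cast h1
    have hne : ∀ {c : Submodule ℂ (Fin n → ℂ)}, finrank ℂ c ≠ 0 → True := fun _ => trivial
    have hi0 : i ≠ 0 := by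
      intro h0
      rw [h0, Nat.cast_zero] at hi
      have := congrFun (eq_zero_of_classInner_self a hi) 1
      rw [ha, Representation.char_one, Pi.zero_apply, Nat.cast_eq_zero] at this
      have h3 := Submodule.finrank_add_eq_of_isCompl hc
      omega
    have hl0 : l ≠ 0 := by
      intro h0
      rw [h0, Nat.cast_zero] at hl
      have := congrFun (eq_zero_of_classInner_self b hl) 1
      rw [hb, Representation.char_one, Pi.zero_apply, Nat.cast_eq_zero] at this
      have h3 := Submodule.finrank_add_eq_of_isCompl hc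
      omega
    omega

/-- A real representation with irreducible character has indicator one. -/
theorem fsInd_of_real {χ : G → ℂ} (h : IsIrrCharacter G χ) {d : ℕ}
    (R : Representation ℝ G (Fin d → ℝ))
    (hR : ∀ g : G, ((LinearMap.trace ℝ (Fin d → ℝ) (R g) : ℝ) : ℂ) = χ g) : fsInd χ = 1 := by
  classical
  set A : G → Matrix (Fin d) (Fin d) ℝ := fun g => LinearMap.toMatrix' (R g) with hA
  have hA1 : A 1 = 1 := by simp only [hA]; rw [map_one, Module.End.one_eq_id, LinearMap.toMatrix'_id]
  have hAm : ∀ a b, A (a * b) = A a * A b := fun a b => by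
    simp only [hA]; rw [map_mul, Module.End.mul_eq_comp, LinearMap.toMatrix'_comp]
  let f : Matrix (Fin d) (Fin d) ℝ →+* Matrix (Fin d) (Fin d) ℂ := Complex.ofRealHom.mapMatrix
  let ρ : Representation ℂ G (Fin d → ℂ) :=
    { toFun := fun g => Matrix.toLin' (f (A g))
      map_one' := by rw [hA1, map_one, Matrix.toLin'_one]; rfl
      map_mul' := fun a b => by rw [hAm, map_mul, Matrix.toLin'_mul]; rfl }
  have hρ : ρ.character = χ := funext fun g => by
    rw [← trace_toMatrix'_eq, ← hR g, LinearMap.trace_eq_matrix_trace ℝ (Pi.basisFun ℝ (Fin d)),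
      LinearMap.toMatrix_eq_toMatrix']
    show (LinearMap.toMatrix' (Matrix.toLin' (f (A g)))).trace = _
    rw [LinearMap.toMatrix'_toLin']
    simp [f, hA, Matrix.trace]
  subst hρ
  haveI := isIrreducible_of_character ρ h
  have hreal : ∀ s, (ρ.character s).im = 0 := fun s => by rw [← hR s]; exact Complex.ofReal_im _
  obtain ⟨-, -, hall⟩ := (fsInd_spec ρ).2 hreal
  set S : Matrix (Fin d) (Fin d) ℝ := ∑ g : G, (A g)ᵀ * A g with hS
  have hSinv : f S ∈ (formRep ρ).invariants := by
    rw [mem_invariants_formRep]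
    intro g
    show (LinearMap.toMatrix' (Matrix.toLin' (f (A g))))ᵀ * f S *
      LinearMap.toMatrix' (Matrix.toLin' (f (A g))) = f S
    rw [LinearMap.toMatrix'_toLin', show (f (A g))ᵀ = f ((A g)ᵀ) from rfl, ← map_mul, ← map_mul]
    congr 1
    rw [hS, Finset.mul_sum, Finset.sum_mul]
    refine Fintype.sum_equiv (Equiv.mulRight g) _ _ fun x => ?_
    show (A g)ᵀ * ((A x)ᵀ * A x) * A g = (A (x * g))ᵀ * A (x * g)
    rw [hAm, Matrix.transpose_mul]
    simp only [Matrix.mul_assoc]
  have hsym : (f S)ᵀ = f S := by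
    show f Sᵀ = f S
    rw [hS, Matrix.transpose_sum]
    simp [Matrix.transpose_mul]
  have hd : d ≠ 0 := by
    rintro rfl
    exact irr_degree_ne_zero h (by rw [Representation.char_one]; simp)
  let i : Fin d := ⟨0, Nat.pos_of_ne_zero hd⟩
  have hne : S i i ≠ 0 := by
    rw [hS, Matrix.sum_apply]
    simp only [Matrix.mul_apply, Matrix.transpose_apply]
    refine (lt_of_lt_of_le zero_lt_one ?_).ne'
    refine le_trans ?_ (Finset.single_le_sum (f := fun g => ∑ k, A g k i * A g k i)
      (fun g _ => Finset.sum_nonneg fun k _ => mul_self_nonneg _) (Finset.mem_univ (1 : G)))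
    rw [hA1]
    simp [Matrix.one_apply]
  have h2 := congrFun (congrFun (hall _ hSinv) i) i
  rw [hsym, Matrix.smul_apply, smul_eq_mul] at h2
  have hne' : f S i i ≠ 0 := by simpa [f] using hne
  exact (mul_eq_right₀ hne').1 h2.symm

end Cfsg.Agent.Lib.Char.RealRep
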